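import Cfsg.Agent.Lib.Helper9.GolayFacts

set_option autoImplicit false

namespace Cfsg.Agent.Lib.Helper9

open Cfsg Cfsg.Agent.Lib.Helper10

theorem octad_mem_supports {o : Finset GolayPt} (ho : o ∈ octads) :
    o ∈ supports (golayCode : Set (GolayPt → ZMod 2)) := ho.1

theorem octad_card {o : Finset GolayPt} (ho : o ∈ octads) : o.card = 8 := ho.2

/-- Two octads sharing at least five points are equal. -/
theorem octad_unique {o o' : Finset GolayPt} (ho : o ∈ octads) (ho' : o' ∈ octads)
    (h5 : 5 ≤ (o ∩ o').card) : o = o' := by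
  have h1 := golay_symmDiff ho.1 ho'.1
  have h2 := card_symmDiff_add o o'
  rw [ho.2, ho'.2] at h2
  have h3 : (symmDiff o o').card = 0 := by
    rcases card_of_mem_supports h1 with h | h | h | h | h <;> omega
  rw [Finset.card_eq_zero] at h3
  exact symmDiff_eq_bot.1 h3

theorem octads_steiner : IsSteinerSystem 5 8 octads := by
  classical
  refine ⟨fun b hb => hb.2, fun s hs => ?_⟩
  set O : Finset (Finset GolayPt) := (Set.toFinite octads).toFinset with hO
  have hmemO : ∀ o, o ∈ O ↔ o ∈ octads := fun o => by simp [hO]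
  have hcardO : O.card = 759 := by
    rw [← ncard_octads, Set.ncard_eq_toFinset_card octads (Set.toFinite octads)]
  set U : Finset (Finset GolayPt) := O.biUnion (fun o => o.powersetCard 5) with hU
  have hdisj : ∀ o ∈ O, ∀ o' ∈ O, o ≠ o' →
      Disjoint (o.powersetCard 5) (o'.powersetCard 5) := by
    intro o ho o' ho' hne
    rw [Finset.disjoint_left]
    intro t ht ht'
    rw [Finset.mem_powersetCard] at ht ht'
    apply hne
    apply octad_unique ((hmemO o).1 ho) ((hmemO o').1 ho')
    rw [← ht.2]
    exact Finset.card_le_card (Finset.subset_inter ht.1 ht'.1)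
  have hcardU : U.card = 42504 := by
    rw [hU, Finset.card_biUnion hdisj]
    have : ∀ o ∈ O, (o.powersetCard 5).card = 56 := by
      intro o ho
      rw [Finset.card_powersetCard, ((hmemO o).1 ho).2]
      decide
    rw [Finset.sum_congr rfl this, Finset.sum_const, hcardO]
    rfl
  have hsub : U ⊆ (Finset.univ : Finset GolayPt).powersetCard 5 := by
    intro t ht
    rw [hU, Finset.mem_biUnion] at ht
    obtain ⟨o, _, ht⟩ := ht
    rw [Finset.mem_powersetCard] at ht ⊢
    exact ⟨Finset.subset_univ _, ht.2⟩
  have hall : U = (Finset.univ : Finset GolayPt).powersetCard 5 := by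
    apply Finset.eq_of_subset_of_card_le hsub
    rw [Finset.card_powersetCard, hcardU, Finset.card_univ]
    have : Fintype.card GolayPt = 24 := by
      simp [GolayPt, Fintype.card_option, ZMod.card]
    rw [this]
    decide
  have hsU : s ∈ U := by
    rw [hall, Finset.mem_powersetCard]
    exact ⟨Finset.subset_univ _, hs⟩
  rw [hU, Finset.mem_biUnion] at hsU
  obtain ⟨o, ho, hso⟩ := hsU
  rw [Finset.mem_powersetCard] at hso
  refine ⟨o, ⟨(hmemO o).1 ho, hso.1⟩, ?_⟩
  rintro o' ⟨ho', hso'⟩
  apply octad_unique ho' ((hmemO o).1 ho)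
  rw [← hs]
  exact Finset.card_le_card (Finset.subset_inter hso' hso.1)

end Cfsg.Agent.Lib.Helper9
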