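import Cfsg.Agent.Lib.Helper9.M12Gen
import Cfsg.Agent.Lib.Helper9.MathieuSimple

set_option autoImplicit false

namespace Cfsg.Agent.Lib.Helper9

open Cfsg Cfsg.Agent.Lib.Helper33
open scoped Pointwise

theorem card_unmask_D0 : (unmask D0).card = 12 := D0_mem.2

/-- Extend a list of distinct points of the base dodecad to one of length five. -/
theorem extend_to_five (m : ℕ) : ∀ (xs : List GolayPt), xs.Nodup → (∀ x ∈ xs, x ∈ unmask D0) →
    xs.length + m = 5 →
    ∃ zs, (xs ++ zs).Nodup ∧ (∀ x ∈ xs ++ zs, x ∈ unmask D0) ∧ (xs ++ zs).length = 5 := by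
  induction m with
  | zero =>
    intro xs h1 h2 h3
    exact ⟨[], by simpa using h1, by simpa using h2, by simpa using h3⟩
  | succ m ih =>
    intro xs h1 h2 h3
    have hc : xs.toFinset.card < (unmask D0).card := by
      rw [card_unmask_D0]
      have := List.toFinset_card_le xs
      omega
    obtain ⟨z, hz, hz'⟩ := Finset.exists_mem_notMem_of_card_lt_card hc
    rw [List.mem_toFinset] at hz'
    obtain ⟨zs, h4, h5, h6⟩ := ih (xs ++ [z])
      (by rw [List.nodup_append]
          refine ⟨h1, by simp, ?_⟩
          intro a ha b hb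
          simp only [List.mem_singleton] at hb
          subst hb
          intro hab
          exact hz' (hab ▸ ha))
      (by intro x hx
          rw [List.mem_append, List.mem_singleton] at hx
          rcases hx with hx | rfl
          · exact h2 x hx
          · exact hz)
      (by rw [List.length_append, List.length_singleton]; omega)
    refine ⟨z :: zs, ?_, ?_, ?_⟩
    · simpa using h4
    · simpa using h5
    · simpa using h6

theorem m12_list_to_base (X : List GolayPt) (hX : X.Nodup) (hD : ∀ x ∈ X, x ∈ unmask D0)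
    (hl : X.length = 5) : ∃ g ∈ H12, X.map g = [pt 0, pt 1, pt 2, pt 3, pt 4] := by
  let x : Fin 5 ↪ GolayPt := ⟨fun i => X.get (i.cast hl.symm), fun i j hij => by
    have := List.nodup_iff_injective_get.1 hX hij
    exact Fin.cast_injective _ this⟩
  obtain ⟨g, hg, h⟩ := m12_to_base x (fun i => hD _ (List.get_mem _ _))
  refine ⟨g, hg, ?_⟩
  apply List.ext_getElem (by rw [List.length_map, hl]; rfl)
  intro i h1 h2
  rw [List.getElem_map]
  have h3 : i < 5 := by simpa using h2
  have h4 := h ⟨i, h3⟩
  have h5 : g X[i] = pt (([0, 1, 2, 3, 4] : List ℕ).get ⟨i, h3⟩) := h4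
  rw [h5]
  interval_cases i <;> rfl

/-- The stabilizer of the base dodecad maps any list of at most five distinct points of the
dodecad to any other such list of the same length. -/
theorem m12_map_list (xs ys : List GolayPt) (hl : xs.length = ys.length) (h5 : xs.length ≤ 5)
    (hx : xs.Nodup) (hy : ys.Nodup) (hxD : ∀ x ∈ xs, x ∈ unmask D0)
    (hyD : ∀ y ∈ ys, y ∈ unmask D0) : ∃ g ∈ H12, xs.map g = ys := by
  obtain ⟨zs, a1, a2, a3⟩ := extend_to_five (5 - xs.length) xs hx hxD (by omega)
  obtain ⟨ws, b1, b2, b3⟩ := extend_to_five (5 - ys.length) ys hy hyD (by omega)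
  obtain ⟨g, hg, h⟩ := m12_list_to_base _ a1 a2 a3
  obtain ⟨g', hg', h'⟩ := m12_list_to_base _ b1 b2 b3
  refine ⟨g'⁻¹ * g, H12.mul_mem (H12.inv_mem hg') hg, ?_⟩
  have h1 : (xs ++ zs).map (⇑(g'⁻¹ * g)) = ys ++ ws := by
    have h2 : (xs ++ zs).map (⇑(g'⁻¹ * g)) = ((xs ++ zs).map (⇑g)).map (⇑(g'.symm)) := by
      rw [List.map_map]; rfl
    rw [h2, h, ← h', List.map_map]
    conv_rhs => rw [← List.map_id (ys ++ ws)]
    apply List.map_congr_left
    intro a _
    simp
  rw [List.map_append] at h1
  exact (List.append_inj h1 (by rw [List.length_map, hl])).1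

theorem mem11 : ∀ q : GolayPt, q ∈ unmask 0x5335e ↔ (q ∈ unmask D0 ∧ q ≠ pt 0) := by
  decide

theorem orderOf_m11A : orderOf (permOf m11A) = 11 :=
  orderOf_permOf m11A_spec.1 11 (by decide +kernel) (by decide +kernel)

theorem orderOf_m11B : orderOf (permOf m11B) = 11 :=
  orderOf_permOf m11B_spec.1 11 (by decide +kernel) (by decide +kernel)

theorem faithful_D0 {g : Equiv.Perm GolayPt} (hg : g ∈ H12)
    (h : ∀ y ∈ unmask D0, g y = y) : g = 1 := by
  have : g ∈ fixL H12 [4, 3, 2, 1, 0] := by
    refine ⟨hg, fun i hi => ?_⟩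
    apply h
    simp only [List.mem_cons, List.not_mem_nil, or_false] at hi
    rcases hi with rfl | rfl | rfl | rfl | rfl <;> decide
  rw [m12_U6] at this
  exact Subgroup.mem_bot.1 this

/-- The stabilizer of the base dodecad and the base point is simple. -/
theorem simple_fix11 : IsSimpleGroup (fixL H12 [0]) := by
  apply simple_of_two_gens (fixL H12 [0]) (permOf m11A) (permOf m11B) 11 K11_eq.symm
    orderOf_m11A orderOf_m11B (by rw [m12_cards.1]; decide)
    (unmask 0x5335e : Set GolayPt)
  · intro g hg x hx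
    have hx' := (mem11 x).1 hx
    refine (mem11 _).2 ⟨(H12_mem_iff hg.1 x).2 hx'.1, fun h => hx'.2 ?_⟩
    rw [← hg.2 0 (by simp)] at h
    exact g.injective h
  · intro g hg h
    apply faithful_D0 hg.1
    intro y hy
    by_cases hy0 : y = pt 0
    · rw [hy0]; exact hg.2 0 (by simp)
    · exact h y ((mem11 y).2 ⟨hy, hy0⟩)
  · intro x hx y hy y' hy' h1 h2
    have hx' := (mem11 x).1 hx
    have hy1 := (mem11 y).1 hy
    have hy2 := (mem11 y').1 hy'
    have h0 : pt 0 ∈ unmask D0 := by decide
    obtain ⟨g, hg, h⟩ := m12_map_list [pt 0, x, y] [pt 0, x, y'] rfl (by simp)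
      (by simp only [List.nodup_cons, List.mem_cons, List.not_mem_nil, or_false, not_or,
            not_false_eq_true, List.nodup_nil, and_true]
          exact ⟨⟨hx'.2.symm, hy1.2.symm⟩, h1.symm⟩)
      (by simp only [List.nodup_cons, List.mem_cons, List.not_mem_nil, or_false, not_or,
            not_false_eq_true, List.nodup_nil, and_true]
          exact ⟨⟨hx'.2.symm, hy2.2.symm⟩, h2.symm⟩)
      (by simp only [List.mem_cons, List.not_mem_nil, or_false, forall_eq_or_imp, forall_eq]
          exact ⟨h0, hx'.1, hy1.1⟩)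
      (by simp only [List.mem_cons, List.not_mem_nil, or_false, forall_eq_or_imp, forall_eq]
          exact ⟨h0, hx'.1, hy2.1⟩)
    simp only [List.map_cons, List.map_nil, List.cons.injEq, and_true] at h
    refine ⟨g, ⟨hg, fun i hi => ?_⟩, h.2.1, h.2.2⟩
    simp only [List.mem_cons, List.not_mem_nil, or_false] at hi
    subst hi
    exact h.1
  · exact ⟨pt 1, by decide⟩
  · rw [ncard_unmask (by decide)]; decide +kernel

/-- The stabilizer of the base dodecad is simple. -/
theorem simple_H12 : IsSimpleGroup H12 := by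
  apply simple_of_fix_simple H12 0 (unmask D0 : Set GolayPt) (by decide)
    (q := 3) (hq := by norm_num) (hq2 := by decide)
  · intro g hg x hx
    exact (H12_mem_iff hg x).2 hx
  · intro g hg h
    exact faithful_D0 hg h
  · intro x hx y hy y' hy' h1 h2
    obtain ⟨g, hg, h⟩ := m12_map_list [x, y] [x, y'] rfl (by simp)
      (by simp only [List.nodup_cons, List.mem_cons, List.not_mem_nil, or_false,
            not_false_eq_true, List.nodup_nil, and_true]
          exact h1.symm)
      (by simp only [List.nodup_cons, List.mem_cons, List.not_mem_nil, or_false,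
            not_false_eq_true, List.nodup_nil, and_true]
          exact h2.symm)
      (by simp only [List.mem_cons, List.not_mem_nil, or_false, forall_eq_or_imp, forall_eq]
          exact ⟨hx, hy⟩)
      (by simp only [List.mem_cons, List.not_mem_nil, or_false, forall_eq_or_imp, forall_eq]
          exact ⟨hx, hy'⟩)
    simp only [List.map_cons, List.map_nil, List.cons.injEq, and_true] at h
    exact ⟨g, hg, h.1, h.2⟩
  · intro x hx y hy z hz h1 h2 h3
    have hc : ({x, y, z} : Finset GolayPt).card < (unmask D0).card := by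
      rw [card_unmask_D0]
      exact lt_of_le_of_lt Finset.card_le_three (by decide)
    obtain ⟨z', hz'D, hz'⟩ := Finset.exists_mem_notMem_of_card_lt_card hc
    simp only [Finset.mem_insert, Finset.mem_singleton, not_or] at hz'
    obtain ⟨g, hg, h⟩ := m12_map_list [x, y, z] [x, y, z'] rfl (by simp)
      (by simp only [List.nodup_cons, List.mem_cons, List.not_mem_nil, or_false, not_or,
            not_false_eq_true, List.nodup_nil, and_true]
          exact ⟨⟨h1.symm, h2.symm⟩, h3.symm⟩)
      (by simp only [List.nodup_cons, List.mem_cons, List.not_mem_nil, or_false, not_or,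
            not_false_eq_true, List.nodup_nil, and_true]
          exact ⟨⟨h1.symm, fun h => hz'.1 h.symm⟩, fun h => hz'.2.1 h.symm⟩)
      (by simp only [List.mem_cons, List.not_mem_nil, or_false, forall_eq_or_imp, forall_eq]
          exact ⟨hx, hy, hz⟩)
      (by simp only [List.mem_cons, List.not_mem_nil, or_false, forall_eq_or_imp, forall_eq]
          exact ⟨hx, hy, hz'D⟩)
    simp only [List.map_cons, List.map_nil, List.cons.injEq, and_true] at h
    exact ⟨g, hg, h.1, h.2.1, by rw [h.2.2]; exact hz'.2.2⟩
  · exact simple_fix11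
  · rw [Set.ncard_coe_finset, card_unmask_D0]; decide

/-- The stabilizer of any dodecad is simple. -/
theorem simple_stab_dod (d : Finset GolayPt) (hd : d ∈ dodecads) :
    IsSimpleGroup (MulAction.stabilizer M24 d) := by
  obtain ⟨u, hu, hud⟩ := dod_to_base hd
  have := simple_H12
  refine (conjEquiv u hu (MulAction.stabilizer M24 d) H12 (fun g hg => hg.1)
    (fun g => ?_)).isSimpleGroup
  constructor
  · intro hg
    have hg' : (g : Equiv.Perm GolayPt) • d = d := hg
    refine ⟨M24.mul_mem (M24.mul_mem hu g.2) (M24.inv_mem hu), ?_⟩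
    show (u * g * u⁻¹) • unmask D0 = unmask D0
    rw [mul_smul, mul_smul, ← hud, inv_smul_smul, hg']
  · intro hg
    have h1 : (u * g * u⁻¹) • unmask D0 = unmask D0 := hg.2
    rw [mul_smul, mul_smul, ← hud, inv_smul_smul] at h1
    exact smul_left_cancel u h1

/-- The stabilizer of any dodecad and one of its points is simple. -/
theorem simple_stab_dod_pt (d : Finset GolayPt) (hd : d ∈ dodecads) (p : GolayPt) (hp : p ∈ d) :
    IsSimpleGroup ↥(MulAction.stabilizer M24 d ⊓ MulAction.stabilizer M24 p) := by
  obtain ⟨u, hu, hud, hup⟩ := m12_trans_on d hd p hp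
  have := simple_fix11
  refine (conjEquiv u hu _ (fixL H12 [0]) (fun g hg => hg.1.1) (fun g => ?_)).isSimpleGroup
  have hinv : u⁻¹ (pt 0) = p := by rw [Equiv.Perm.inv_eq_iff_eq, hup]
  constructor
  · intro hg
    have hg1 : (g : Equiv.Perm GolayPt) • d = d := hg.1
    have hg2 : (g : Equiv.Perm GolayPt) p = p := hg.2
    refine ⟨⟨M24.mul_mem (M24.mul_mem hu g.2) (M24.inv_mem hu), ?_⟩, fun i hi => ?_⟩
    · show (u * g * u⁻¹) • unmask D0 = unmask D0
      rw [mul_smul, mul_smul, ← hud, inv_smul_smul, hg1]
    · simp only [List.mem_cons, List.not_mem_nil, or_false] at hi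
      subst hi
      rw [Equiv.Perm.mul_apply, Equiv.Perm.mul_apply, hinv, hg2, hup]
  · intro hg
    have h1 : (u * g * u⁻¹) • unmask D0 = unmask D0 := hg.1.2
    rw [mul_smul, mul_smul, ← hud, inv_smul_smul] at h1
    have h0 := hg.2 0 (by simp)
    rw [Equiv.Perm.mul_apply, Equiv.Perm.mul_apply, hinv, ← hup] at h0
    exact ⟨smul_left_cancel u h1, u.injective h0⟩

end Cfsg.Agent.Lib.Helper9
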