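import Mathlib
import Cfsg.Agent.Lib.Helper61.FHDefs
import Cfsg.Agent.Lib.Helper61.FHAlg2

set_option autoImplicit false

/-! FEIT-HIGMAN ladder (helper61, S1142), rung W: abstract dihedral groups. -/

namespace Cfsg.Agent.Lib.Helper9.FH

open Cfsg.Agent.Lib.Helper61.FH

section
variable {W : Type*} [Group W] (σ τ : W)

theorem alt_append (x y : W) (k : ℕ) :
    alt x y (k + 1) = alt x y k * (if k % 2 = 0 then x else y) := by
  induction k generalizing x y with
  | zero => simp [alt_succ]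
  | succ k ih =>
    rw [alt_succ, ih y x, alt_succ x y k, mul_assoc]
    congr 2
    rcases Nat.mod_two_eq_zero_or_one k with h | h
    · rw [if_pos h, if_neg (by omega)]
    · rw [if_neg (by omega), if_pos (by omega)]

theorem alt_mem_Q (σ τ : W) (m : ℕ) (Q : Set W) (h1 : (1 : W) ∈ Q)
    (hex : ∀ w ∈ Q, ∀ s, (s = σ ∨ s = τ) → w * s ∉ Q → w * s = σ * w)
    (hne : ∀ k, 0 < k → k < m → alt σ τ k ≠ alt τ σ k) :
    ∀ k < m, alt τ σ k ∈ Q := by
  intro k
  induction k with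
  | zero => intro _; simpa using h1
  | succ k ih =>
    intro hk
    have hQ := ih (by omega)
    by_contra hcon
    rw [alt_append] at hcon
    have h := hex _ hQ (if k % 2 = 0 then τ else σ) (by split_ifs <;> simp) hcon
    rw [← alt_append, ← alt_succ] at h
    exact hne (k + 1) (by omega) hk h.symm

variable {σ τ}

theorem inv_rot (hσ : σ * σ = 1) (hτ : τ * τ = 1) : τ * σ = (σ * τ)⁻¹ := by
  rw [eq_inv_iff_mul_eq_one]
  calc τ * σ * (σ * τ) = τ * (σ * σ) * τ := by group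
    _ = 1 := by rw [hσ, mul_one, hτ]

theorem sigma_not_mem (hσ : σ * σ = 1) (hτ : τ * τ = 1) (hσ1 : σ ≠ 1) (hτ1 : τ ≠ 1) :
    σ ∉ Subgroup.zpowers (σ * τ) := by
  intro hmem
  -- σ commutes with ρ
  have hcomm : σ * (σ * τ) = (σ * τ) * σ := by
    obtain ⟨i, hi⟩ := Subgroup.mem_zpowers_iff.mp hmem
    have := ((Commute.refl (σ * τ)).zpow_left i).eq
    rw [hi] at this
    exact this
  -- so τ = σ τ σ, i.e. σ τ = τ σ
  have h1 : τ = σ * τ * σ := by
    have : σ * (σ * τ) = τ := by rw [← mul_assoc, hσ, one_mul]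
    rw [← hcomm, this]
  have h2 : (σ * τ) * (σ * τ) = 1 := by
    calc (σ * τ) * (σ * τ) = (σ * τ * σ) * τ := by group
      _ = 1 := by rw [← h1, hτ]
  obtain ⟨i, hi⟩ := Subgroup.mem_zpowers_iff.mp hmem
  rcases Int.even_or_odd' i with ⟨c, hc | hc⟩
  · apply hσ1
    rw [← hi, hc, zpow_mul, zpow_two, h2, one_zpow]
  · apply hτ1
    have : σ = σ * τ := by
      conv_lhs => rw [← hi, hc, zpow_add, zpow_mul, zpow_two, h2, one_zpow, one_mul, zpow_one]
    simpa using this.symm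

theorem tau_not_mem (hσ : σ * σ = 1) (hτ : τ * τ = 1) (hσ1 : σ ≠ 1) (hτ1 : τ ≠ 1) :
    τ ∉ Subgroup.zpowers (σ * τ) := by
  intro hmem
  apply sigma_not_mem hσ hτ hσ1 hτ1
  have : (σ * τ) * τ = σ := by rw [mul_assoc, hτ, mul_one]
  have h2 := Subgroup.mul_mem _ (Subgroup.mem_zpowers (σ * τ)) hmem
  rw [this] at h2
  exact h2

theorem alt_even_mem (k : ℕ) : alt σ τ (2 * k) ∈ Subgroup.zpowers (σ * τ) := by
  rw [alt_even]; exact Subgroup.pow_mem _ (Subgroup.mem_zpowers _) k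

theorem alt_even_mem' (hσ : σ * σ = 1) (hτ : τ * τ = 1) (k : ℕ) :
    alt τ σ (2 * k) ∈ Subgroup.zpowers (σ * τ) := by
  rw [alt_even, inv_rot hσ hτ]
  exact Subgroup.pow_mem _ (Subgroup.inv_mem _ (Subgroup.mem_zpowers _)) k

theorem alt_odd_not_mem (hσ : σ * σ = 1) (hτ : τ * τ = 1) (hσ1 : σ ≠ 1) (hτ1 : τ ≠ 1) (k : ℕ) :
    alt σ τ (2 * k + 1) ∉ Subgroup.zpowers (σ * τ) := by
  rw [alt_odd, inv_rot hσ hτ]
  intro h
  apply sigma_not_mem hσ hτ hσ1 hτ1
  have h2 : ((σ * τ)⁻¹) ^ k ∈ Subgroup.zpowers (σ * τ) :=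
    Subgroup.pow_mem _ (Subgroup.inv_mem _ (Subgroup.mem_zpowers _)) k
  exact (Subgroup.mul_mem_cancel_right _ h2).mp h

theorem alt_odd_not_mem' (hσ : σ * σ = 1) (hτ : τ * τ = 1) (hσ1 : σ ≠ 1) (hτ1 : τ ≠ 1) (k : ℕ) :
    alt τ σ (2 * k + 1) ∉ Subgroup.zpowers (σ * τ) := by
  rw [alt_odd]
  intro h
  apply tau_not_mem hσ hτ hσ1 hτ1
  have h2 : (σ * τ) ^ k ∈ Subgroup.zpowers (σ * τ) :=
    Subgroup.pow_mem _ (Subgroup.mem_zpowers _) k
  exact (Subgroup.mul_mem_cancel_right _ h2).mp h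

theorem pow_inj_lt {x : W} {k l : ℕ} (hk : k < orderOf x) (hl : l < orderOf x)
    (h : x ^ k = x ^ l) : k = l :=
  pow_injOn_Iio_orderOf (Set.mem_Iio.mpr hk) (Set.mem_Iio.mpr hl) h

theorem alt_inj (hσ : σ * σ = 1) (hτ : τ * τ = 1) (hσ1 : σ ≠ 1) (hτ1 : τ ≠ 1)
    (hn : 2 ≤ orderOf (σ * τ)) :
    ∀ k ≤ orderOf (σ * τ), ∀ l ≤ orderOf (σ * τ), alt σ τ k = alt σ τ l → k = l := by
  intro k hk l hl h
  have hord : orderOf (τ * σ) = orderOf (σ * τ) := by rw [inv_rot hσ hτ, orderOf_inv]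
  rcases Nat.even_or_odd' k with ⟨k', rfl | rfl⟩ <;> rcases Nat.even_or_odd' l with ⟨l', rfl | rfl⟩
  · rw [alt_even, alt_even] at h
    rw [pow_inj_lt (by omega) (by omega) h]
  · exfalso
    apply alt_odd_not_mem hσ hτ hσ1 hτ1 l'
    rw [← h]; exact alt_even_mem k'
  · exfalso
    apply alt_odd_not_mem hσ hτ hσ1 hτ1 k'
    rw [h]; exact alt_even_mem l'
  · rw [alt_odd, alt_odd] at h
    have h' := mul_left_cancel h
    rw [pow_inj_lt (by omega) (by omega) h']

end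

theorem dihedral_facts {W : Type*} [Group W] [Finite W] (σ τ : W) (hσ : σ * σ = 1) (hτ : τ * τ = 1)
    (hσ1 : σ ≠ 1) (hτ1 : τ ≠ 1) (hne : σ ≠ τ) (hgen : Subgroup.closure {σ, τ} = ⊤) :
    2 ≤ orderOf (σ * τ) ∧ Nat.card W = 2 * orderOf (σ * τ) ∧
    alt σ τ (orderOf (σ * τ)) = alt τ σ (orderOf (σ * τ)) ∧
    (∀ k ≤ orderOf (σ * τ), ∀ l ≤ orderOf (σ * τ), alt σ τ k = alt σ τ l → k = l) ∧
    (∀ k ≤ orderOf (σ * τ), ∀ l ≤ orderOf (σ * τ), alt τ σ k = alt τ σ l → k = l) ∧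
    (∀ k < orderOf (σ * τ), ∀ l ≤ orderOf (σ * τ), 0 < l → alt σ τ k ≠ alt τ σ l) := by
  have hord : orderOf (τ * σ) = orderOf (σ * τ) := by rw [inv_rot hσ hτ, orderOf_inv]
  have hσinv : σ⁻¹ = σ := inv_eq_of_mul_eq_one_left hσ
  have hτinv : τ⁻¹ = τ := inv_eq_of_mul_eq_one_left hτ
  have hn : 2 ≤ orderOf (σ * τ) := by
    have h0 : 0 < orderOf (σ * τ) := orderOf_pos _
    have h1 : orderOf (σ * τ) ≠ 1 := by
      intro h
      rw [orderOf_eq_one_iff] at h
      apply hne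
      rw [← hτinv]; exact eq_inv_of_mul_eq_one_left h
    omega
  set n := orderOf (σ * τ) with hndef
  have hpow : (σ * τ) ^ n = 1 := pow_orderOf_eq_one _
  refine ⟨hn, ?_, ?_, alt_inj hσ hτ hσ1 hτ1 hn, ?_, ?_⟩
  · -- cardinality
    set H := Subgroup.zpowers (σ * τ) with hH
    have hρ : σ * τ ∈ H := Subgroup.mem_zpowers _
    have hall : ∀ w : W, w ∈ H ∨ w * σ ∈ H := by
      intro w
      have hw : w ∈ Subgroup.closure {σ, τ} := by rw [hgen]; trivial
      have step : ∀ x : W, (x ∈ H ∨ x * σ ∈ H) → ∀ y ∈ ({σ, τ} : Set W),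
          (x * y ∈ H ∨ x * y * σ ∈ H) := by
        intro x hx y hy
        rcases hy with rfl | hy
        · rcases hx with hx | hx
          · right; rw [mul_assoc, hσ, mul_one]; exact hx
          · left; exact hx
        · rw [Set.mem_singleton_iff] at hy
          subst hy
          rcases hx with hx | hx
          · right
            rw [mul_assoc, inv_rot hσ hτ]
            exact H.mul_mem hx (H.inv_mem hρ)
          · left
            have : x * y = (x * σ) * (σ * y) := by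
              rw [mul_assoc, ← mul_assoc σ σ y, hσ, one_mul]
            rw [this]; exact H.mul_mem hx hρ
      induction hw using Subgroup.closure_induction_right with
      | one => left; exact H.one_mem
      | mul_right x _ y hy ih => exact step x ih y hy
      | mul_inv_cancel x _ y hy ih =>
        have : y⁻¹ = y := by
          rcases hy with rfl | hy
          · exact hσinv
          · rw [Set.mem_singleton_iff] at hy; subst hy; exact hτinv
        rw [this]; exact step x ih y hy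
    have hidx : H.index = 2 := by
      rw [Subgroup.index_eq_two_iff]
      refine ⟨σ, fun w => ?_⟩
      have hnot : ¬ (w * σ ∈ H ∧ w ∈ H) := by
        rintro ⟨h1, h2⟩
        exact sigma_not_mem hσ hτ hσ1 hτ1 ((Subgroup.mul_mem_cancel_left _ h2).mp h1)
      rcases hall w with h | h
      · right; exact ⟨h, fun h' => hnot ⟨h', h⟩⟩
      · left; exact ⟨h, fun h' => hnot ⟨h, h'⟩⟩
    rw [← Subgroup.card_mul_index H, hidx, Nat.card_zpowers, mul_comm]
  · -- braid
    rcases Nat.even_or_odd' n with ⟨k, hk | hk⟩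
    · rw [hk, alt_even, alt_even, inv_rot hσ hτ, inv_pow, eq_inv_iff_mul_eq_one, ← pow_add,
        ← two_mul, ← hk, hpow]
    · rw [hk, alt_odd, alt_odd, inv_rot hσ hτ]
      have h1 : τ * (σ * ((σ * τ)⁻¹) ^ k) = τ * (τ * (σ * τ) ^ k) := by
        rw [← mul_assoc, ← mul_assoc, hτ, one_mul, inv_rot hσ hτ, ← pow_succ', inv_pow,
          inv_eq_iff_mul_eq_one, ← pow_add]
        rw [show k + 1 + k = n by omega, hpow]
      exact mul_left_cancel h1
  · have := alt_inj hτ hσ hτ1 hσ1 (by rw [hord]; exact hn)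
    rw [hord] at this
    exact this
  · intro k hk l hl hl0 h
    rcases Nat.even_or_odd' k with ⟨k', rfl | rfl⟩ <;>
      rcases Nat.even_or_odd' l with ⟨l', rfl | rfl⟩
    · rw [alt_even, alt_even, inv_rot hσ hτ, inv_pow, eq_inv_iff_mul_eq_one, ← pow_add] at h
      have := Nat.le_of_dvd (by omega) (orderOf_dvd_of_pow_eq_one h)
      omega
    · apply alt_odd_not_mem' hσ hτ hσ1 hτ1 l'
      rw [← h]; exact alt_even_mem k'
    · apply alt_odd_not_mem hσ hτ hσ1 hτ1 k'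
      rw [h]; exact alt_even_mem' hσ hτ l'
    · rw [alt_odd, alt_odd, inv_rot hσ hτ] at h
      have h1 : τ * (σ * ((σ * τ)⁻¹) ^ k') = τ * (τ * (σ * τ) ^ l') := by rw [h]
      rw [← mul_assoc, ← mul_assoc, hτ, one_mul, inv_rot hσ hτ, ← pow_succ', inv_pow,
          inv_eq_iff_mul_eq_one, ← pow_add] at h1
      have := Nat.le_of_dvd (by omega) (orderOf_dvd_of_pow_eq_one h1)
      omega

end Cfsg.Agent.Lib.Helper9.FH
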