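import Cfsg.Agent.Lib.Helper85.StNDefs
import Cfsg.Agent.Lib.Helper6.SLGen

set_option autoImplicit false

/-! STN ladder (helper85, S2086/S2401), rung STD: the standard Steinberg data of `SL`. -/

namespace Cfsg.Agent.Lib.Helper85

open scoped commutatorElement

namespace StN

open Matrix

theorem h9_transvection_mul {ι K : Type*} [Fintype ι] [DecidableEq ι] [Field K] {i j : ι}
    (h : i ≠ j) (t u : K) :
    SpecialLinearGroup.transvection h t * SpecialLinearGroup.transvection h u
      = SpecialLinearGroup.transvection h (t + u) := by
  apply Subtype.ext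
  simp only [Matrix.SpecialLinearGroup.coe_mul, Matrix.SpecialLinearGroup.transvection_coe]
  simp only [mul_add, add_mul, mul_one, one_mul, single_mul_single_of_ne _ _ _ _ h.symm, add_zero,
    single_add]
  abel

theorem h9_transvection_comm {ι K : Type*} [Fintype ι] [DecidableEq ι] [Field K] {i j k l : ι}
    (hij : i ≠ j) (hkl : k ≠ l) (hil : i ≠ l) (hjk : j ≠ k) (t u : K) :
    SpecialLinearGroup.transvection hij t * SpecialLinearGroup.transvection hkl u
      = SpecialLinearGroup.transvection hkl u * SpecialLinearGroup.transvection hij t := by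
  apply Subtype.ext
  simp only [Matrix.SpecialLinearGroup.coe_mul, Matrix.SpecialLinearGroup.transvection_coe]
  simp only [mul_add, add_mul, mul_one, one_mul, single_mul_single_of_ne _ _ _ _ hjk,
    single_mul_single_of_ne _ _ _ _ hil.symm, add_zero]
  abel

noncomputable def std (ι K : Type*) [Fintype ι] [DecidableEq ι] [Field K] :
    StN ι K (SpecialLinearGroup ι K) where
  x := fun i j t => if h : i ≠ j then SpecialLinearGroup.transvection h t else 1
  add := by
    intro i j hij t u
    simp only [dif_pos hij]
    exact h9_transvection_mul hij t u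
  comm := by
    intro i j k l hij hkl hil hjk t u
    simp only [dif_pos hij, dif_pos hkl]
    exact h9_transvection_comm hij hkl hil hjk t u
  rel := by
    intro i j l hij hjl hil t u
    simp only [dif_pos hij, dif_pos hjl, dif_pos hil]
    exact Cfsg.Agent.Lib.Helper6.commutator_transvection hij hjl hil t u

theorem std_x {ι K : Type*} [Fintype ι] [DecidableEq ι] [Field K] {i j : ι} (h : i ≠ j) (t : K) :
    (std ι K).x i j t = SpecialLinearGroup.transvection h t := by
  simp only [std, dif_pos h]

theorem std_closure (ι K : Type*) [Fintype ι] [DecidableEq ι] [Field K] [Nontrivial ι] :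
    Subgroup.closure {g | ∃ i j t, i ≠ j ∧ g = (std ι K).x i j t} = ⊤ := by
  rw [eq_top_iff]
  intro A _
  refine Cfsg.Agent.Lib.Helper6.SL_transvection_induction
    (fun A => A ∈ Subgroup.closure {g | ∃ i j t, i ≠ j ∧ g = (std ι K).x i j t}) ?_ ?_ A
  · intro i j h c
    apply Subgroup.subset_closure
    exact ⟨i, j, c, h, (std_x h c).symm⟩
  · intro A B hA hB
    exact Subgroup.mul_mem _ hA hB

end StN

end Cfsg.Agent.Lib.Helper85
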