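import Cfsg.Agent.Lib.Helper85.StNDefs

set_option autoImplicit false

/-! STN ladder (helper85, S2086/S2401), rung MIL1. -/

namespace Cfsg.Agent.Lib.Helper85

open scoped commutatorElement

namespace StN

variable {ι K Γ G : Type*} [Field K] [Group Γ] [Group G]

/-- commuting of lifts only depends on the images -/
theorem h9_commute_congr (σ : Γ →* G) (hc : σ.ker ≤ Subgroup.center Γ) {A A' B B' : Γ}
    (hA : σ A = σ A') (hB : σ B = σ B') (h : A' * B' = B' * A') : A * B = B * A := by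
  rw [← commutatorElement_eq_one_iff_mul_comm] at h ⊢
  rw [SL2Cover.comm_congr σ hc hA hB, h]

theorem h9_map_comm (σ : Γ →* G) (A B : Γ) : σ ⁅A, B⁆ = ⁅σ A, σ B⁆ := map_commutatorElement σ A B

theorem h9_map_conj (σ : Γ →* G) (A B : Γ) : σ (A * B * A⁻¹) = σ A * σ B * (σ A)⁻¹ := by
  rw [map_mul, map_mul, map_inv]

theorem liftComm_of_extra (D : StN ι K G) (σ : Γ →* G) (hs : Function.Surjective σ)
    (hc : σ.ker ≤ Subgroup.center Γ) {i j k l h : ι} (hij : i ≠ j) (hkl : k ≠ l) (hil : i ≠ l)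
    (hjk : j ≠ k) (hhi : h ≠ i) (hhj : h ≠ j) (hhk : h ≠ k) (hhl : h ≠ l) :
    LiftComm D σ i j k l := by
  intro t u A B hA hB
  obtain ⟨U, hU⟩ := hs (D.x i h t)
  obtain ⟨V, hV⟩ := hs (D.x h j 1)
  have hUV : σ ⁅U, V⁆ = D.x i j t := by
    rw [h9_map_comm, hU, hV, D.rel i h j hhi.symm hhj hij, mul_one]
  have h1 : B * ⁅U, V⁆ * B⁻¹ = ⁅U, V⁆ := by
    rw [SL2Cover.conj_comm]
    apply SL2Cover.comm_congr σ hc
    · rw [h9_map_conj, hB, hU, D.cj_comm hkl hhi.symm hhk.symm hil.symm]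
    · rw [h9_map_conj, hB, hV, D.cj_comm hkl hhj hjk.symm hhl.symm]
  have h2 : ⁅U, V⁆ * B = B * ⁅U, V⁆ := by
    conv_lhs => rw [← h1]
    group
  exact h9_commute_congr σ hc (hA.trans hUV.symm) rfl h2

end StN

end Cfsg.Agent.Lib.Helper85
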