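import Cfsg.Agent.Lib.Helper85.StNDefs
import Cfsg.Agent.Lib.Helper9.StNMil1

set_option autoImplicit false

/-! STN ladder (helper85, S2086/S2401), rung MIL2. -/

namespace Cfsg.Agent.Lib.Helper85

open scoped commutatorElement

namespace StN

variable {ι K Γ G : Type*} [Field K] [Group Γ] [Group G]

theorem H1_of_four (D : StN ι K G) (σ : Γ →* G) (hs : Function.Surjective σ)
    (hc : σ.ker ≤ Subgroup.center Γ) (h4 : ∀ i j k : ι, ∃ l, l ≠ i ∧ l ≠ j ∧ l ≠ k)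
    (F3 : ∀ i j k l : ι, i ≠ j → i ≠ k → i ≠ l → j ≠ k → j ≠ l → k ≠ l → LiftComm D σ i j k l) :
    H1 D σ := by
  intro i j k l hij hkl hil hjk
  by_cases hik : i = k
  · subst hik
    obtain ⟨h, h1, h2, h3⟩ := h4 i j l
    exact liftComm_of_extra D σ hs hc hij hkl hil hjk h1 h2 h1 h3
  · by_cases hjl : j = l
    · subst hjl
      obtain ⟨h, h1, h2, h3⟩ := h4 i j k
      exact liftComm_of_extra D σ hs hc hij hkl hil hjk h1 h2 h3 h2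
    · exact F3 i j k l hij hik hil hjk hjl hkl

theorem h9_comm_mul_left (a b c : Γ) : ⁅a * b, c⁆ = a * ⁅b, c⁆ * a⁻¹ * ⁅a, c⁆ := by
  simp only [commutatorElement_def]; group

theorem h9_comm_mul_right (a b c : Γ) : ⁅a, b * c⁆ = ⁅a, b⁆ * (b * ⁅a, c⁆ * b⁻¹) := by
  simp only [commutatorElement_def]; group

theorem h9_conj_eq (a b : Γ) : a * b * a⁻¹ = ⁅a, b⁆ * b := by
  simp only [commutatorElement_def]; group

/-- the associativity of iterated commutators of lifts, four distinct indices -/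
theorem h9_assoc (D : StN ι K G) (σ : Γ →* G) (h1 : H1 D σ) {a b c d : ι} (hab : a ≠ b)
    (hac : a ≠ c) (had : a ≠ d) (hbc : b ≠ c) (hbd : b ≠ d) (hcd : c ≠ d) (r s t : K) (U V W : Γ)
    (hU : σ U = D.x a b r) (hV : σ V = D.x b c s) (hW : σ W = D.x c d t) :
    ⁅U, ⁅V, W⁆⁆ = ⁅⁅U, V⁆, W⁆ := by
  set P := ⁅U, V⁆ with hP
  have hPσ : σ P = D.x a c (r * s) := by rw [hP, h9_map_comm, hU, hV, D.rel a b c hab hbc hac]
  have hVW : σ ⁅V, W⁆ = D.x b d (s * t) := by rw [h9_map_comm, hV, hW, D.rel b c d hbc hcd hbd]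
  have hPW : σ ⁅P, W⁆ = D.x a d (r * s * t) := by
    rw [h9_map_comm, hPσ, hW, D.rel a c d hac hcd had]
  have e1 : U * W * U⁻¹ = W := by
    rw [h1 a b c d hab hcd had hbc r t U W hU hW]; group
  have e2 : U * V * U⁻¹ = P * V := h9_conj_eq U V
  have e3 : P * ⁅V, W⁆ = ⁅V, W⁆ * P := h1 a c b d hac hbd had hbc.symm _ _ P ⁅V, W⁆ hPσ hVW
  have e4 : ⁅P, W⁆ * ⁅V, W⁆ = ⁅V, W⁆ * ⁅P, W⁆ :=
    h1 a d b d had hbd had hbd.symm _ _ ⁅P, W⁆ ⁅V, W⁆ hPW hVW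
  have e5 : U * ⁅V, W⁆ * U⁻¹ = ⁅V, W⁆ * ⁅P, W⁆ := by
    rw [SL2Cover.conj_comm, e1, e2, h9_comm_mul_left, e3]; group
  calc ⁅U, ⁅V, W⁆⁆ = (U * ⁅V, W⁆ * U⁻¹) * ⁅V, W⁆⁻¹ := by
        conv_lhs => rw [commutatorElement_def]
    _ = ⁅V, W⁆ * ⁅P, W⁆ * ⁅V, W⁆⁻¹ := by rw [e5]
    _ = ⁅P, W⁆ := by rw [← e4]; group

theorem h9_H2_ne (D : StN ι K G) (σ : Γ →* G) (hs : Function.Surjective σ)
    (hc : σ.ker ≤ Subgroup.center Γ) (h1 : H1 D σ) {a b c d : ι} (hab : a ≠ b)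
    (hac : a ≠ c) (had : a ≠ d) (hbc : b ≠ c) (hbd : b ≠ d) (hcd : c ≠ d) (r s : K)
    (A B A' B' : Γ) (hA : σ A = D.x a b r) (hB : σ B = D.x b d s) (hA' : σ A' = D.x a c (r * s))
    (hB' : σ B' = D.x c d 1) : ⁅A, B⁆ = ⁅A', B'⁆ := by
  obtain ⟨V, hV⟩ := hs (D.x b c s)
  have hVW : σ ⁅V, B'⁆ = D.x b d s := by
    rw [h9_map_comm, hV, hB', D.rel b c d hbc hcd hbd, mul_one]
  have hAV : σ ⁅A, V⁆ = D.x a c (r * s) := by rw [h9_map_comm, hA, hV, D.rel a b c hab hbc hac]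
  rw [SL2Cover.comm_congr σ hc (rfl : σ A = σ A) (hB.trans hVW.symm),
    h9_assoc D σ h1 hab hac had hbc hbd hcd r s 1 A V B' hA hV hB']
  exact SL2Cover.comm_congr σ hc (hAV.trans hA'.symm) rfl

theorem H2_of_H1 (D : StN ι K G) (σ : Γ →* G) (hs : Function.Surjective σ)
    (hc : σ.ker ≤ Subgroup.center Γ) (h4 : ∀ i j k : ι, ∃ l, l ≠ i ∧ l ≠ j ∧ l ≠ k)
    (h1 : H1 D σ) : H2 D σ := by
  intro a b c d hab hbd had hac hcd r s A B A' B' hA hB hA' hB'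
  by_cases hbc : b = c
  · subst hbc
    obtain ⟨c', h1', h2', h3'⟩ := h4 a b d
    obtain ⟨A'', hA''⟩ := hs (D.x a c' (r * s))
    obtain ⟨B'', hB''⟩ := hs (D.x c' d 1)
    rw [h9_H2_ne D σ hs hc h1 hab h1'.symm had h2'.symm hbd h3' r s A B A'' B'' hA hB hA'' hB'']
    have hA3 : σ A'' = D.x a c' (r * s * 1) := by rw [mul_one]; exact hA''
    rw [h9_H2_ne D σ hs hc h1 hab h1'.symm had h2'.symm hbd h3' (r * s) 1 A' B' A'' B'' hA' hB'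
      hA3 hB'']
  · exact h9_H2_ne D σ hs hc h1 hab hac had hbc hbd hcd r s A B A' B' hA hB hA' hB'

end StN

end Cfsg.Agent.Lib.Helper85
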