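import Cfsg.Agent.Lib.Helper85.StNDefs
import Cfsg.Agent.Lib.Helper9.StNMil1
import Cfsg.Agent.Lib.Helper9.StNMil2

set_option autoImplicit false

/-! STN ladder (helper85, S2086/S2401), rung CORE. -/

namespace Cfsg.Agent.Lib.Helper85

open scoped commutatorElement

namespace StN

variable {ι K Γ G : Type*} [Field K] [Group Γ] [Group G]

theorem lift_core (D : StN ι K G) (σ : Γ →* G) (hs : Function.Surjective σ)
    (hc : σ.ker ≤ Subgroup.center Γ) (h3 : ∀ i j : ι, i ≠ j → ∃ k, k ≠ i ∧ k ≠ j)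
    (h1 : H1 D σ) (h2 : H2 D σ) :
    ∃ E : StN ι K Γ, ∀ i j, i ≠ j → ∀ t, σ (E.x i j t) = D.x i j t := by
  classical
  choose! κ hκ using h3
  set s := Function.surjInv hs with hsdef
  have hσs : ∀ g, σ (s g) = g := Function.surjInv_eq hs
  let X : ι → ι → K → Γ := fun i j t =>
    if i ≠ j then ⁅s (D.x i (κ i j) t), s (D.x (κ i j) j 1)⁆ else 1
  have hX : ∀ i j, i ≠ j → ∀ t, X i j t = ⁅s (D.x i (κ i j) t), s (D.x (κ i j) j 1)⁆ := by
    intro i j hij t
    simp only [X, if_pos hij]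
  have hσX : ∀ i j, i ≠ j → ∀ t, σ (X i j t) = D.x i j t := by
    intro i j hij t
    rw [hX i j hij, h9_map_comm, hσs, hσs, D.rel i (κ i j) j (hκ i j hij).1.symm (hκ i j hij).2 hij,
      mul_one]
  refine ⟨⟨X, ?_, ?_, ?_⟩, hσX⟩
  · -- add
    intro i j hij t u
    have hk1 := (hκ i j hij).1
    have hk2 := (hκ i j hij).2
    set k := κ i j
    set U := s (D.x i k t)
    set U' := s (D.x i k u)
    set V := s (D.x k j 1)
    have eU : σ U = D.x i k t := hσs _
    have eU' : σ U' = D.x i k u := hσs _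
    have eV : σ V = D.x k j 1 := hσs _
    have e1 : σ (s (D.x i k (t + u))) = σ (U * U') := by
      rw [hσs, map_mul, eU, eU', D.add i k hk1.symm]
    have eUV : σ ⁅U, V⁆ = D.x i j t := by
      rw [h9_map_comm, eU, eV, D.rel i k j hk1.symm hk2 hij, mul_one]
    have eU'V : σ ⁅U', V⁆ = D.x i j u := by
      rw [h9_map_comm, eU', eV, D.rel i k j hk1.symm hk2 hij, mul_one]
    have c1 : U * ⁅U', V⁆ = ⁅U', V⁆ * U :=
      h1 i k i j hk1.symm hij hij hk1 _ _ U ⁅U', V⁆ eU eU'V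
    have c2 : ⁅U', V⁆ * ⁅U, V⁆ = ⁅U, V⁆ * ⁅U', V⁆ :=
      h1 i j i j hij hij hij hij.symm _ _ _ _ eU'V eUV
    rw [hX i j hij, hX i j hij, hX i j hij, SL2Cover.comm_congr σ hc e1 (rfl : σ V = σ V),
      h9_comm_mul_left, c1, mul_inv_cancel_right, c2]
  · -- comm
    intro i j k l hij hkl hil hjk t u
    exact h1 i j k l hij hkl hil hjk t u _ _ (hσX i j hij t) (hσX k l hkl u)
  · -- rel
    intro i j l hij hjl hil t u
    rw [hX i l hil]
    exact h2 i j (κ i l) l hij hjl hil (hκ i l hil).1.symm (hκ i l hil).2 t u _ _ _ _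
      (hσX i j hij t) (hσX j l hjl u) (hσs _) (hσs _)

end StN

end Cfsg.Agent.Lib.Helper85
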