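import Cfsg.Agent.Lib.Helper85.StNDefs
import Cfsg.Agent.Lib.Helper9.StNMil1
import Cfsg.Agent.Lib.Helper9.StNMil2

set_option autoImplicit false

/-! STN ladder (helper85, S2086/S2401), rung F34 (four indices). -/

namespace Cfsg.Agent.Lib.Helper85

open scoped commutatorElement

namespace StN

variable {ι K Γ G : Type*} [Field K] [Group Γ] [Group G]

section
variable (D : StN ι K G) (σ : Γ →* G) (hs : Function.Surjective σ)
  (hc : σ.ker ≤ Subgroup.center Γ)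

/-- the central commutator of lifts -/
noncomputable def h9F (a b c d : ι) (t u : K) : Γ :=
  ⁅Function.surjInv hs (D.x a b t), Function.surjInv hs (D.x c d u)⁆

include hc in
theorem h9F_eq (a b c d : ι) (t u : K) {A B : Γ} (hA : σ A = D.x a b t) (hB : σ B = D.x c d u) :
    ⁅A, B⁆ = h9F D σ hs a b c d t u :=
  SL2Cover.comm_congr σ hc (hA.trans (Function.surjInv_eq hs _).symm)
    (hB.trans (Function.surjInv_eq hs _).symm)

include hc in
theorem h9F_central {a b c d : ι} (hab : a ≠ b) (hcd : c ≠ d) (had : a ≠ d) (hbc : b ≠ c)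
    (t u : K) (g : Γ) : h9F D σ hs a b c d t u * g = g * h9F D σ hs a b c d t u := by
  apply SL2Cover.central_of_ker σ hc
  rw [h9F, h9_map_comm, Function.surjInv_eq hs, Function.surjInv_eq hs,
    commutatorElement_eq_one_iff_mul_comm]
  exact D.comm a b c d hab hcd had hbc t u

include hc in
theorem h9F_add {a b c d : ι} (hab : a ≠ b) (hcd : c ≠ d) (had : a ≠ d) (hbc : b ≠ c)
    (t t' u : K) : h9F D σ hs a b c d (t + t') u
      = h9F D σ hs a b c d t u * h9F D σ hs a b c d t' u := by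
  set A := Function.surjInv hs (D.x a b t) with hA
  set A' := Function.surjInv hs (D.x a b t') with hA'
  set B := Function.surjInv hs (D.x c d u) with hB
  have eA : σ A = D.x a b t := Function.surjInv_eq hs _
  have eA' : σ A' = D.x a b t' := Function.surjInv_eq hs _
  have eB : σ B = D.x c d u := Function.surjInv_eq hs _
  have e1 : σ (A * A') = D.x a b (t + t') := by rw [map_mul, eA, eA', D.add a b hab]
  rw [← h9F_eq D σ hs hc a b c d (t + t') u e1 eB, h9_comm_mul_left,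
    h9F_eq D σ hs hc a b c d t' u eA' eB, h9F_eq D σ hs hc a b c d t u eA eB,
    ← h9F_central D σ hs hc hab hcd had hbc t' u A, mul_inv_cancel_right,
    h9F_central D σ hs hc hab hcd had hbc t' u]

include hc in
theorem h9F_zero {a b c d : ι} (hab : a ≠ b) (hcd : c ≠ d) (had : a ≠ d) (hbc : b ≠ c)
    (u : K) : h9F D σ hs a b c d 0 u = 1 := by
  have := h9F_add D σ hs hc hab hcd had hbc 0 0 u
  rw [add_zero] at this
  exact (mul_eq_left.1 this.symm)

include hc in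
theorem h9F_neg {a b c d : ι} (hab : a ≠ b) (hcd : c ≠ d) (had : a ≠ d) (hbc : b ≠ c)
    (t u : K) : h9F D σ hs a b c d (-t) u = (h9F D σ hs a b c d t u)⁻¹ := by
  rw [eq_inv_iff_mul_eq_one, ← h9F_add D σ hs hc hab hcd had hbc, neg_add_cancel,
    h9F_zero D σ hs hc hab hcd had hbc]

include hc in
/-- relation (R) -/
theorem h9_R {i j k l : ι} (hij : i ≠ j) (hik : i ≠ k) (hil : i ≠ l) (hjk : j ≠ k) (hjl : j ≠ l)
    (hkl : k ≠ l) (t u : K) :
    h9F D σ hs k l i j u t = h9F D σ hs i l k j (-(t * u)) 1 := by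
  obtain ⟨U, hU⟩ := hs (D.x i k t)
  obtain ⟨V, hV⟩ := hs (D.x k j 1)
  obtain ⟨W, hW⟩ := hs (D.x k l u)
  have hUV : σ ⁅U, V⁆ = D.x i j t := by
    rw [h9_map_comm, hU, hV, D.rel i k j hik hjk.symm hij, mul_one]
  set Y := ⁅W, U⁆ with hY
  have hYσ : σ Y = D.x i l (-(t * u)) := by
    rw [hY, ← commutatorElement_inv, map_inv, h9_map_comm, hU, hW, D.rel i k l hik hkl hil,
      D.x_neg hil]
  have e1 : W * V * W⁻¹ = V := by
    rw [liftComm_of_extra D σ hs hc hkl hjk.symm hjk.symm hkl.symm hik hil hik hij u 1 W V hW hV]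
    group
  have e2 : W * U * W⁻¹ = Y * U := h9_conj_eq W U
  have e3 : Y * ⁅U, V⁆ = ⁅U, V⁆ * Y :=
    liftComm_of_extra D σ hs hc hil hij hij hil.symm hik.symm hkl hik.symm hjk.symm _ _ Y ⁅U, V⁆
      hYσ hUV
  have e4 : ⁅Y, V⁆ = h9F D σ hs i l k j (-(t * u)) 1 := h9F_eq D σ hs hc i l k j _ _ hYσ hV
  have e5 : W * ⁅U, V⁆ * W⁻¹ = ⁅U, V⁆ * ⁅Y, V⁆ := by
    rw [SL2Cover.conj_comm, e1, e2, h9_comm_mul_left, e3]; group
  rw [← h9F_eq D σ hs hc k l i j u t hW hUV]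
  calc ⁅W, ⁅U, V⁆⁆ = (W * ⁅U, V⁆ * W⁻¹) * ⁅U, V⁆⁻¹ := by
        conv_lhs => rw [commutatorElement_def]
    _ = ⁅U, V⁆ * ⁅Y, V⁆ * ⁅U, V⁆⁻¹ := by rw [e5]
    _ = h9F D σ hs i l k j (-(t * u)) 1 := by
        rw [e4, ← h9F_central D σ hs hc hil hjk.symm hij hkl.symm]; group

include hc in
/-- relation (R') -/
theorem h9_R' {i j k l : ι} (hij : i ≠ j) (hik : i ≠ k) (hil : i ≠ l) (hjk : j ≠ k) (hjl : j ≠ l)
    (hkl : k ≠ l) (t u : K) :
    h9F D σ hs k l i j u t = h9F D σ hs i l k j t u := by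
  obtain ⟨U, hU⟩ := hs (D.x i l t)
  obtain ⟨V, hV⟩ := hs (D.x l j 1)
  obtain ⟨W, hW⟩ := hs (D.x k l u)
  have hUV : σ ⁅U, V⁆ = D.x i j t := by
    rw [h9_map_comm, hU, hV, D.rel i l j hil hjl.symm hij, mul_one]
  set Y := ⁅W, V⁆ with hY
  have hYσ : σ Y = D.x k j u := by
    rw [hY, h9_map_comm, hW, hV, D.rel k l j hkl hjl.symm hjk.symm, mul_one]
  have e1 : W * U * W⁻¹ = U := by
    rw [liftComm_of_extra D σ hs hc hkl hil hkl hil.symm hjk hjl hij.symm hjl u t W U hW hU]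
    group
  have e2 : W * V * W⁻¹ = Y * V := h9_conj_eq W V
  have e3 : Y * ⁅U, V⁆ = ⁅U, V⁆ * Y :=
    liftComm_of_extra D σ hs hc hjk.symm hij hjk.symm hij.symm hkl.symm hjl.symm hil.symm
      hjl.symm _ _ Y ⁅U, V⁆ hYσ hUV
  have e4 : ⁅U, Y⁆ = h9F D σ hs i l k j t u := h9F_eq D σ hs hc i l k j _ _ hU hYσ
  have e5 : W * ⁅U, V⁆ * W⁻¹ = ⁅U, Y⁆ * ⁅U, V⁆ := by
    rw [SL2Cover.conj_comm, e1, e2, h9_comm_mul_right, e3]; group
  rw [← h9F_eq D σ hs hc k l i j u t hW hUV]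
  calc ⁅W, ⁅U, V⁆⁆ = (W * ⁅U, V⁆ * W⁻¹) * ⁅U, V⁆⁻¹ := by
        conv_lhs => rw [commutatorElement_def]
    _ = ⁅U, Y⁆ * ⁅U, V⁆ * ⁅U, V⁆⁻¹ := by rw [e5]
    _ = h9F D σ hs i l k j t u := by rw [e4]; group

include hc in
theorem h9F_sq {a b c d : ι} (hab : a ≠ b) (hac : a ≠ c) (had : a ≠ d) (hbc : b ≠ c)
    (hbd : b ≠ d) (hcd : c ≠ d) (t u : K) :
    h9F D σ hs a b c d t u * h9F D σ hs a b c d t u = 1 := by
  -- (i, l, k, j) = (a, b, c, d)
  have E : ∀ t u : K, h9F D σ hs a b c d t u = h9F D σ hs a b c d (-(t * u)) 1 := by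
    intro t u
    rw [← h9_R' D σ hs hc had hac hab hcd.symm hbd.symm hbc.symm t u,
      h9_R D σ hs hc had hac hab hcd.symm hbd.symm hbc.symm t u]
  have h1 : ∀ t : K, h9F D σ hs a b c d t 1 * h9F D σ hs a b c d t 1 = 1 := by
    intro t
    have := E t 1
    rw [mul_one, h9F_neg D σ hs hc hab hcd had hbc] at this
    exact eq_inv_iff_mul_eq_one.mp this
  rw [E t u]
  exact h1 _

end

theorem liftComm_four (D : StN ι K G) (σ : Γ →* G) (hs : Function.Surjective σ)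
    (hc : σ.ker ≤ Subgroup.center Γ) (hK : (2 : K) ≠ 0 ∨ ∃ μ : K, μ ≠ 0 ∧ μ ^ 2 ≠ 1)
    {i j k l : ι} (hij : i ≠ j) (hik : i ≠ k) (hil : i ≠ l) (hjk : j ≠ k) (hjl : j ≠ l)
    (hkl : k ≠ l) : LiftComm D σ i j k l := by
  intro t u A B hA hB
  rw [← commutatorElement_eq_one_iff_mul_comm, h9F_eq D σ hs hc i j k l t u hA hB]
  rcases hK with h2 | ⟨μ, hμ0, hμ⟩
  · have : t = t / 2 + t / 2 := by field_simp; ring
    rw [this, h9F_add D σ hs hc hij hkl hil hjk]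
    exact h9F_sq D σ hs hc hij hik hil hjk hjl hkl _ _
  · -- conjugate by a lift of `h i j μ`
    obtain ⟨d, hd⟩ := hs (D.h i j μ)
    have key : ∀ t : K, h9F D σ hs i j k l (μ ^ 2 * t) u = h9F D σ hs i j k l t u := by
      intro t
      obtain ⟨A, hA⟩ := hs (D.x i j t)
      obtain ⟨B, hB⟩ := hs (D.x k l u)
      have e1 : σ (d * A * d⁻¹) = D.x i j (μ ^ 2 * t) := by
        rw [h9_map_conj, hd, hA, D.h_conj_self hij hik hjk hμ0]
      have e2 : σ (d * B * d⁻¹) = D.x k l u := by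
        rw [h9_map_conj, hd, hB, D.h_comm hij hkl hik hil hjk hjl]
      rw [← h9F_eq D σ hs hc i j k l _ _ e1 e2, ← SL2Cover.conj_comm,
        h9F_eq D σ hs hc i j k l _ _ hA hB, ← h9F_central D σ hs hc hij hkl hil hjk]
      group
    have hne : μ ^ 2 - 1 ≠ 0 := sub_ne_zero.mpr hμ
    have : t = μ ^ 2 * (t / (μ ^ 2 - 1)) + -(t / (μ ^ 2 - 1)) := by field_simp; ring
    rw [this, h9F_add D σ hs hc hij hkl hil hjk, key, h9F_neg D σ hs hc hij hkl hil hjk,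
      mul_inv_cancel]

end StN

end Cfsg.Agent.Lib.Helper85
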