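import Cfsg.Agent.Lib.Helper85.StNDefs
import Cfsg.Agent.Lib.Helper9.StNMil1
import Cfsg.Agent.Lib.Helper9.StNMil2
import Cfsg.Agent.Lib.Helper9.StNF34

set_option autoImplicit false

/-! STN ladder (helper85, S2086/S2401), rung N3A (three indices, H1). -/

namespace Cfsg.Agent.Lib.Helper85

open scoped commutatorElement

namespace StN

variable {ι K Γ G : Type*} [Field K] [Group Γ] [Group G]

/-- a torus element scaling the first root subgroup and centralising the second one kills the
central commutator of lifts -/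
theorem h9F_trivial_of_torus (D : StN ι K G) (σ : Γ →* G) (hs : Function.Surjective σ)
    (hc : σ.ker ≤ Subgroup.center Γ) {a b c e : ι} (hab : a ≠ b) (hce : c ≠ e) (hae : a ≠ e)
    (hbc : b ≠ c) (d : G) (lam : K) (hlam : lam ≠ 1)
    (h1 : ∀ t, d * D.x a b t * d⁻¹ = D.x a b (lam * t))
    (h2 : ∀ u, d * D.x c e u * d⁻¹ = D.x c e u) (t u : K) : h9F D σ hs a b c e t u = 1 := by
  obtain ⟨dh, hd⟩ := hs d
  have key : ∀ t : K, h9F D σ hs a b c e (lam * t) u = h9F D σ hs a b c e t u := by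
    intro t
    obtain ⟨A, hA⟩ := hs (D.x a b t)
    obtain ⟨B, hB⟩ := hs (D.x c e u)
    have e1 : σ (dh * A * dh⁻¹) = D.x a b (lam * t) := by rw [h9_map_conj, hd, hA, h1]
    have e2 : σ (dh * B * dh⁻¹) = D.x c e u := by rw [h9_map_conj, hd, hB, h2]
    rw [← h9F_eq D σ hs hc a b c e _ _ e1 e2, ← SL2Cover.conj_comm,
      h9F_eq D σ hs hc a b c e _ _ hA hB, ← h9F_central D σ hs hc hab hce hae hbc]
    group
  have hne : lam - 1 ≠ 0 := sub_ne_zero.mpr hlam
  have : t = lam * (t / (lam - 1)) + -(t / (lam - 1)) := by field_simp; ring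
  rw [this, h9F_add D σ hs hc hab hce hae hbc, key, h9F_neg D σ hs hc hab hce hae hbc,
    mul_inv_cancel]

theorem H1_of_three (D : StN ι K G) (σ : Γ →* G) (hs : Function.Surjective σ)
    (hc : σ.ker ≤ Subgroup.center Γ) (h3 : ∀ i j : ι, i ≠ j → ∃ k, k ≠ i ∧ k ≠ j)
    (hcard : ∀ i j k l : ι, i ≠ j → i ≠ k → j ≠ k → l = i ∨ l = j ∨ l = k)
    (hδ : ∃ δ : K, δ ≠ 0 ∧ δ ^ 3 ≠ 1) : H1 D σ := by
  obtain ⟨δ, hδ0, hδ3⟩ := hδ
  intro i j k l hij hkl hil hjk
  by_cases hik : i = k
  · subst hik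
    by_cases hjl : j = l
    · subst hjl
      obtain ⟨h, h1, h2⟩ := h3 i j hij
      exact liftComm_of_extra D σ hs hc hij hij hij hij.symm h1 h2 h1 h2
    · -- same row: `x i j`, `x i l`
      intro t u A B hA hB
      rw [← commutatorElement_eq_one_iff_mul_comm, h9F_eq D σ hs hc i j i l t u hA hB]
      apply h9F_trivial_of_torus D σ hs hc hij hil hil hij.symm (D.h i j δ * D.h l j δ) (δ ^ 3) hδ3
      · intro t
        rw [cj2, D.h_conj_col2 (Ne.symm hjl) hil.symm hij.symm hδ0, D.h_conj_self hij hil hjl hδ0]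
        congr 1; ring
      · intro u
        rw [cj2, D.h_conj_col1 (Ne.symm hjl) hil.symm hij.symm hδ0, D.h_conj_row1 hij hil hjl hδ0]
        congr 1; field_simp
  · by_cases hjl : j = l
    · subst hjl
      -- same column: `x i j`, `x k j`
      intro t u A B hA hB
      rw [← commutatorElement_eq_one_iff_mul_comm, h9F_eq D σ hs hc i j k j t u hA hB]
      apply h9F_trivial_of_torus D σ hs hc hij hkl hij hjk (D.h i j δ * D.h i k δ) (δ ^ 3) hδ3
      · intro t
        rw [cj2, D.h_conj_row1 hik hij hkl hδ0, D.h_conj_self hij hik hjk hδ0]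
        congr 1; ring
      · intro u
        rw [cj2, D.h_conj_row2 hik hij hkl hδ0, D.h_conj_col2 hij hik hjk hδ0]
        congr 1; field_simp
    · exfalso
      rcases hcard i j k l hij hik hjk with h | h | h
      · exact hil h.symm
      · exact hjl h.symm
      · exact hkl h.symm

end StN

end Cfsg.Agent.Lib.Helper85
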