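import Cfsg.Agent.Lib.Helper85.StNDefs
import Cfsg.Agent.Lib.Helper9.StNMil1
import Cfsg.Agent.Lib.Helper9.StNMil2
import Cfsg.Agent.Lib.Helper9.StNF34

set_option autoImplicit false

/-! STN ladder (helper85, S2086/S2401), rung N3B (three indices, H2). -/

namespace Cfsg.Agent.Lib.Helper85

open scoped commutatorElement

namespace StN

variable {ι K Γ G : Type*} [Field K] [Group Γ] [Group G]

theorem H2_of_three (D : StN ι K G) (σ : Γ →* G) (hs : Function.Surjective σ)
    (hc : σ.ker ≤ Subgroup.center Γ)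
    (hcard : ∀ i j k l : ι, i ≠ j → i ≠ k → j ≠ k → l = i ∨ l = j ∨ l = k)
    (hδ : ∃ δ : K, δ ≠ 0 ∧ δ ^ 3 ≠ 1) (h1 : H1 D σ) : H2 D σ := by
  obtain ⟨δ, hδ0, hδ3⟩ := hδ
  intro a b c d hab hbd had hac hcd r s A B A' B' hA hB hA' hB'
  have hcb : c = b := by
    rcases hcard a b d c hab had hbd with h | h | h
    · exact absurd h.symm hac
    · exact h
    · exact absurd h hcd
  subst hcb
  -- `y t u`, a lift of `x a d (t * u)`
  set y : K → K → Γ := fun t u => h9F D σ hs a c c d t u with hy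
  have hyeq : ∀ (t u : K) {A B : Γ}, σ A = D.x a c t → σ B = D.x c d u → ⁅A, B⁆ = y t u :=
    fun t u A B hA hB => h9F_eq D σ hs hc a c c d t u hA hB
  have hyσ : ∀ t u, σ (y t u) = D.x a d (t * u) := by
    intro t u
    simp only [hy, h9F]
    rw [h9_map_comm, Function.surjInv_eq hs, Function.surjInv_eq hs, D.rel a c d hab hbd had]
  have hycomm : ∀ t u t' u', y t u * y t' u' = y t' u' * y t u := fun t u t' u' =>
    h1 a d a d had had had had.symm _ _ _ _ (hyσ t u) (hyσ t' u')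
  have hyadd : ∀ t t' u, y (t + t') u = y t u * y t' u := by
    intro t t' u
    obtain ⟨P, hP⟩ := hs (D.x a c t)
    obtain ⟨P', hP'⟩ := hs (D.x a c t')
    obtain ⟨Q, hQ⟩ := hs (D.x c d u)
    have e1 : σ (P * P') = D.x a c (t + t') := by rw [map_mul, hP, hP', D.add a c hab]
    have c1 : P * y t' u = y t' u * P := h1 a c a d hab had had hab.symm _ _ _ _ hP (hyσ t' u)
    rw [← hyeq _ _ e1 hQ, h9_comm_mul_left, hyeq _ _ hP' hQ, hyeq _ _ hP hQ, c1,
      mul_inv_cancel_right, hycomm]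
  set g : K → K → Γ := fun t u => y t u * (y (t * u) 1)⁻¹ with hg
  have hgcen : ∀ t u (z : Γ), g t u * z = z * g t u := by
    intro t u z
    apply SL2Cover.central_of_ker σ hc
    simp only [hg]
    rw [map_mul, map_inv, hyσ, hyσ, mul_one, mul_inv_cancel]
  have hgadd : ∀ t t' u, g (t + t') u = g t u * g t' u := by
    intro t t' u
    simp only [hg]
    rw [add_mul, hyadd, hyadd, mul_inv_rev]
    have c2 : y t' u * ((y (t' * u) 1)⁻¹ * (y (t * u) 1)⁻¹)
        = (y (t * u) 1)⁻¹ * (y t' u * (y (t' * u) 1)⁻¹) := by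
      have h5 := hgcen t' u (y (t * u) 1)⁻¹
      simp only [hg] at h5
      rw [← mul_assoc, h5]
    rw [mul_assoc, c2]; group
  have hg0 : ∀ u, g 0 u = 1 := by
    intro u
    have := hgadd 0 0 u
    rw [add_zero] at this
    exact mul_eq_left.1 this.symm
  have hgneg : ∀ t u, g (-t) u = (g t u)⁻¹ := by
    intro t u
    rw [eq_inv_iff_mul_eq_one, ← hgadd, neg_add_cancel, hg0]
  obtain ⟨dh, hd⟩ := hs (D.h a c δ * D.h a d δ)
  have hyconj : ∀ t u, dh * y t u * dh⁻¹ = y (δ ^ 3 * t) u := by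
    intro t u
    obtain ⟨P, hP⟩ := hs (D.x a c t)
    obtain ⟨Q, hQ⟩ := hs (D.x c d u)
    have e1 : σ (dh * P * dh⁻¹) = D.x a c (δ ^ 3 * t) := by
      rw [h9_map_conj, hd, hP, cj2, D.h_conj_row1 had hab hbd.symm hδ0,
        D.h_conj_self hab had hbd hδ0]
      congr 1; ring
    have e2 : σ (dh * Q * dh⁻¹) = D.x c d u := by
      rw [h9_map_conj, hd, hQ, cj2, D.h_conj_col2 had hab hbd.symm hδ0,
        D.h_conj_row2 hab had hbd hδ0]
      congr 1; field_simp
    rw [← hyeq _ _ hP hQ, SL2Cover.conj_comm, hyeq _ _ e1 e2]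
  have hgconj : ∀ t u, g (δ ^ 3 * t) u = g t u := by
    intro t u
    have e : dh * g t u * dh⁻¹ = g (δ ^ 3 * t) u := by
      simp only [hg]
      rw [mul_assoc (δ ^ 3) t u, ← hyconj, ← hyconj]; group
    rw [← e, ← hgcen]; group
  have hg1 : ∀ t u, g t u = 1 := by
    intro t u
    have hne : δ ^ 3 - 1 ≠ 0 := sub_ne_zero.mpr hδ3
    have : t = δ ^ 3 * (t / (δ ^ 3 - 1)) + -(t / (δ ^ 3 - 1)) := by field_simp; ring
    rw [this, hgadd, hgconj, hgneg, mul_inv_cancel]
  rw [hyeq r s hA hB, hyeq (r * s) 1 hA' hB']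
  have := hg1 r s
  simp only [hg] at this
  exact mul_inv_eq_one.mp this

end StN

end Cfsg.Agent.Lib.Helper85
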