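import Cfsg.Agent.Lib.Helper9.CoCenter
import Cfsg.Agent.Lib.Helper9.M12Chain

set_option autoImplicit false

/-!
`Co0` does not split over its centre.
-/

namespace Cfsg.Agent.Lib.Helper9

open Cfsg Cfsg.Agent.Lib.Helper33
open scoped Pointwise

/-- a fixed point free involution of `M24` exchanging the base dodecad with its complement -/
def swP : ℕ := 0xc8d42d2a3328e942330bc55b14f7

theorem swP_in : inM24 swP = true := by decide +kernel

theorem swP_chk : allBelow (fun k => Nat.beq (fld5 swP (fld5 swP k)) k &&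
    (Nat.testBit D0 k ^^ Nat.testBit D0 (fld5 swP k))) 24 = true := by decide +kernel

theorem swP_sq (p : GolayPt) : permOf swP (permOf swP p) = p := by
  have hp := isPerm_of_inM24 swP_in
  have h := (allBelow_iff _ _).1 swP_chk (idx p) (idx_lt p)
  rw [Bool.and_eq_true] at h
  rw [permOf_apply hp, permOf_apply hp, idx_pt (isPerm_lt hp (idx_lt p)),
    Nat.eq_of_beq_eq_true h.1, pt_idx]

theorem swP_symm (p : GolayPt) : (permOf swP).symm p = permOf swP p := by
  rw [Equiv.symm_apply_eq, swP_sq]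

theorem swP_xor (p : GolayPt) : (p ∈ unmask D0) ↔ ¬ (permOf swP p ∈ unmask D0) := by
  have hp := isPerm_of_inM24 swP_in
  have h := (allBelow_iff _ _).1 swP_chk (idx p) (idx_lt p)
  rw [Bool.and_eq_true] at h
  rw [mem_unmask, mem_unmask, permOf_apply hp, idx_pt (isPerm_lt hp (idx_lt p))]
  have h2 := h.2
  cases h3 : Nat.testBit D0 (idx p) <;> cases h4 : Nat.testBit D0 (fld5 swP (idx p)) <;>
    simp_all

noncomputable def swEl : ↥Co0 := monoEl (permOf swP) (permOf_mem_M24 swP_in) (unmask D0) D0_mem.1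

theorem swEl_sq : swEl * swEl = negEl := by
  apply co0_ext
  intro v
  rw [mul_smul, negEl_apply]
  apply Subtype.ext
  funext i
  show signedPerm (permOf swP) (unmask D0) (signedPerm (permOf swP) (unmask D0) v.1) i = -(v.1 i)
  rw [signedPerm_signedPerm, swP_symm, swP_symm, swP_sq]
  by_cases h : i ∈ unmask D0
  · rw [if_pos h, if_neg ((swP_xor i).1 h)]; ring
  · have h' : permOf swP i ∈ unmask D0 := by
      by_contra hc
      exact h ((swP_xor i).2 hc)
    rw [if_neg h, if_pos h']; ring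

theorem negEl_sq : negEl * negEl = 1 := by
  apply co0_ext
  intro v
  rw [mul_smul, negEl_apply, negEl_apply, neg_neg, one_smul]

theorem co0_nonsplit (K : Subgroup ↥Co0) : ¬ (Subgroup.zpowers negEl).IsComplement' K := by
  intro hK
  obtain ⟨⟨z, k⟩, hzk, _⟩ := Subgroup.IsComplement.existsUnique hK swEl
  have hzk' : z.1 * k.1 = swEl := hzk
  have hzc : ∀ h : ↥Co0, h * z.1 = z.1 * h := by
    have : Subgroup.zpowers negEl ≤ Subgroup.center ↥Co0 :=
      Subgroup.zpowers_le.2 (Subgroup.mem_center_iff.2 negEl_comm)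
    exact fun h => Subgroup.mem_center_iff.1 (this z.2) h
  have hzz : z.1 * z.1 = 1 := by
    obtain ⟨m, hm⟩ := Subgroup.mem_zpowers_iff.1 z.2
    rw [← hm, ← (Commute.refl negEl).mul_zpow, negEl_sq, one_zpow]
  have h1 : negEl = k.1 * k.1 := by
    rw [← swEl_sq, ← hzk']
    calc z.1 * k.1 * (z.1 * k.1) = z.1 * (k.1 * z.1) * k.1 := by group
      _ = z.1 * (z.1 * k.1) * k.1 := by rw [hzc k.1]
      _ = (z.1 * z.1) * (k.1 * k.1) := by group
      _ = k.1 * k.1 := by rw [hzz, one_mul]
  have h2 : negEl ∈ Subgroup.zpowers negEl ⊓ K :=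
    Subgroup.mem_inf.2 ⟨Subgroup.mem_zpowers _, h1 ▸ K.mul_mem k.2 k.2⟩
  rw [hK.disjoint.eq_bot, Subgroup.mem_bot] at h2
  exact negEl_ne_one h2

end Cfsg.Agent.Lib.Helper9
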