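import Mathlib
import Cfsg.Agent.Lib.Helper61.FHDefs

set_option autoImplicit false

/-! FEIT-HIGMAN ladder (helper61, S1142), rung TRIG1, plus the common trigonometric toolbox. -/

namespace Cfsg.Agent.Lib.Helper9.FH

open Cfsg.Agent.Lib.Helper61.FH Polynomial Real

theorem cos_step (u θ : ℝ) : cos (u + 2 * θ) = 2 * cos θ * cos (u + θ) - cos u := by
  rw [cos_add, cos_add, cos_two_mul, sin_two_mul]; ring

theorem sin_step (u θ : ℝ) : sin (u + 2 * θ) = 2 * cos θ * sin (u + θ) - sin u := by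
  rw [sin_add, sin_add, cos_two_mul, sin_two_mul]; ring

/-- closed form of the linear recurrence -/
theorem rec2_closed (r θ s0 s1 : ℝ) (hr : r ≠ 0) (hs : sin θ ≠ 0) (k : ℕ) :
    rec2 (2 * r * cos θ) (r ^ 2) s0 s1 k =
      r ^ k * (s0 * cos (k * θ) + (s1 - r * s0 * cos θ) / (r * sin θ) * sin (k * θ)) := by
  induction k using Nat.twoStepInduction with
  | zero => simp [rec2]
  | one =>
    simp only [rec2, Nat.cast_one, one_mul, pow_one]
    field_simp
    ring
  | more k h0 h1 =>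
    have e1 : ((k + 1 : ℕ) : ℝ) * θ = k * θ + θ := by push_cast; ring
    have e2 : ((k + 2 : ℕ) : ℝ) * θ = k * θ + 2 * θ := by push_cast; ring
    rw [e1] at h1
    rw [rec2, h0, h1, e2, cos_step, sin_step]
    ring

theorem Pq_eval (r θ : ℝ) (k : ℕ) :
    (Pq (r ^ 2) k).eval (2 * r * cos θ) * sin θ * r = r ^ k * sin (k * θ) := by
  induction k using Nat.twoStepInduction with
  | zero => simp [Pq]
  | one => simp [Pq]; ring
  | more k h0 h1 =>
    have e1 : ((k + 1 : ℕ) : ℝ) * θ = k * θ + θ := by push_cast; ring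
    have e2 : ((k + 2 : ℕ) : ℝ) * θ = k * θ + 2 * θ := by push_cast; ring
    rw [e1] at h1
    rw [Pq, e2, sin_step]
    simp only [eval_sub, eval_mul, eval_X, eval_C]
    linear_combination (2 * r * cos θ) * h1 - r ^ 2 * h0

section angle
variable (a b : ℝ) (ha : 0 < a) (hb : 0 < b) (m j : ℕ) (hj : 0 < j) (hjm : 2 * j < m)

include hj hjm in
theorem sin_theta_pos : 0 < sin (2 * π * j / m) := by
  have hm : (0 : ℝ) < m := by exact_mod_cast (by omega : 0 < m)
  have hj' : (0 : ℝ) < j := by exact_mod_cast hj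
  have hjm' : (2 : ℝ) * j < m := by exact_mod_cast hjm
  apply sin_pos_of_pos_of_lt_pi
  · positivity
  · rw [div_lt_iff₀ hm]
    nlinarith [pi_pos]

include ha hb in
theorem sqrt_pos' : 0 < √(a * b) := Real.sqrt_pos.mpr (mul_pos ha hb)

include ha hb in
theorem sqrt_sq' : √(a * b) ^ 2 = a * b := Real.sq_sqrt (mul_pos ha hb).le

include hj hjm in
theorem sin_m_theta : sin ((m : ℝ) * (2 * π * j / m)) = 0 := by
  have hm : (m : ℝ) ≠ 0 := by exact_mod_cast (by omega : m ≠ 0)
  have : (m : ℝ) * (2 * π * j / m) = ((2 * j : ℕ) : ℝ) * π := by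
    push_cast; field_simp
  rw [this, sin_nat_mul_pi]

include hj hjm in
theorem sin_half_theta (K : ℕ) (hK : m = 2 * K) : sin ((K : ℝ) * (2 * π * j / m)) = 0 := by
  have hK0 : (K : ℝ) ≠ 0 := by exact_mod_cast (by omega : K ≠ 0)
  have : (K : ℝ) * (2 * π * j / m) = (j : ℝ) * π := by
    rw [hK]; push_cast; field_simp
  rw [this, sin_nat_mul_pi]

end angle

theorem xj_sq_lt (a b : ℝ) (ha : 0 < a) (hb : 0 < b) (m j : ℕ) (hj : 0 < j) (hjm : 2 * j < m) :
    xj a b m j ^ 2 < 4 * a * b := by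
  have hs := sin_theta_pos m j hj hjm
  have hab := mul_pos ha hb
  unfold xj
  have h1 : (2 * √(a * b) * cos (2 * π * j / m)) ^ 2
      = 4 * (a * b) * (1 - sin (2 * π * j / m) ^ 2) := by
    rw [mul_pow, mul_pow, sqrt_sq' a b ha hb, cos_sq']; ring
  rw [h1]
  nlinarith [pow_pos hs 2]

theorem mu_root (a b : ℝ) (ha : 0 < a) (hb : 0 < b) (m j : ℕ) (hj : 0 < j) (hjm : 2 * j < m)
    (hodd : m % 2 = 1 → a = b) : (mu a b m).IsRoot (xj a b m j) := by
  have hs := sin_theta_pos m j hj hjm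
  have hr := sqrt_pos' a b ha hb
  have hr2 := sqrt_sq' a b ha hb
  set θ := 2 * π * j / m with hθ
  set r := √(a * b) with hrdef
  have hx : xj a b m j = 2 * r * cos θ := rfl
  rw [IsRoot.def, hx, mu, ← hr2]
  rcases Nat.mod_two_eq_zero_or_one m with h | h
  · rw [if_pos h]
    have hK : m = 2 * (m / 2) := by omega
    have h1 := Pq_eval r θ (m / 2)
    rw [sin_half_theta m j hj hjm (m / 2) hK, mul_zero] at h1
    have h2 : (Pq (r ^ 2) (m / 2)).eval (2 * r * cos θ) = 0 := by
      rcases mul_eq_zero.mp h1 with h3 | h3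
      · rcases mul_eq_zero.mp h3 with h4 | h4
        · exact h4
        · exact absurd h4 hs.ne'
      · exact absurd h3 hr.ne'
    rw [eval_mul, h2, mul_zero]
  · rw [if_neg (by omega)]
    have hab := hodd h
    have hra : r = a := by
      rw [hrdef, ← hab]; exact Real.sqrt_mul_self ha.le
    have h1 := Pq_eval r θ (m / 2)
    have h2 := Pq_eval r θ (m / 2 + 1)
    have hm : (m : ℝ) = 2 * ((m / 2 : ℕ) : ℝ) + 1 := by
      have : m = 2 * (m / 2) + 1 := by omega
      exact_mod_cast this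
    set K := m / 2 with hK
    have h3 : sin (((K + 1 : ℕ) : ℝ) * θ) + sin ((K : ℝ) * θ) = 0 := by
      have hm0 : (m : ℝ) ≠ 0 := by exact_mod_cast (by omega : m ≠ 0)
      have e1 : ((K + 1 : ℕ) : ℝ) * θ = (j : ℝ) * π + θ / 2 := by
        push_cast
        have : (j : ℝ) * π = (m : ℝ) * θ / 2 := by rw [hθ]; field_simp
        rw [this, hm]; ring
      have e2 : (K : ℝ) * θ = (j : ℝ) * π - θ / 2 := by
        have : (j : ℝ) * π = (m : ℝ) * θ / 2 := by rw [hθ]; field_simp
        rw [this, hm]; ring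
      rw [e1, e2, sin_add, sin_sub, sin_nat_mul_pi]; ring
    have h4 : ((Pq (r ^ 2) (K + 1)).eval (2 * r * cos θ) + a * (Pq (r ^ 2) K).eval (2 * r * cos θ))
        * (sin θ * r) = 0 := by
      have : ((Pq (r ^ 2) (K + 1)).eval (2 * r * cos θ)
          + a * (Pq (r ^ 2) K).eval (2 * r * cos θ)) * (sin θ * r)
          = r ^ (K + 1) * (sin (((K + 1 : ℕ) : ℝ) * θ) + sin ((K : ℝ) * θ)) := by
        rw [← hra]
        linear_combination h2 + r * h1
      rw [this, h3, mul_zero]
    have h5 := (mul_eq_zero.mp h4).resolve_right (mul_pos hs hr).ne'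
    rw [eval_mul, eval_add, eval_mul, eval_C, h5, mul_zero]

end Cfsg.Agent.Lib.Helper9.FH
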