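import Mathlib
import Cfsg.Agent.Lib.Helper61.FHDefs
import Cfsg.Agent.Lib.Helper9.FHTrig1

set_option autoImplicit false

/-! FEIT-HIGMAN ladder (helper61, S1142), rung TRIG2: the trigonometric sum formula. -/

namespace Cfsg.Agent.Lib.Helper9.FH

open Cfsg.Agent.Lib.Helper61.FH Polynomial Real Finset

theorem sum_cos_two (θ : ℝ) (n : ℕ) :
    2 * sin θ * ∑ k ∈ range n, cos (2 * (k * θ)) = sin (2 * (n * θ) - θ) + sin θ := by
  induction n with
  | zero => simp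
  | succ n ih =>
    rw [sum_range_succ, mul_add, ih]
    have e : 2 * (((n + 1 : ℕ) : ℝ) * θ) - θ = 2 * (n * θ) + θ := by push_cast; ring
    rw [e, sin_add, sin_sub]; ring

theorem sum_sin_two (θ : ℝ) (n : ℕ) :
    2 * sin θ * ∑ k ∈ range n, sin (2 * (k * θ)) = cos θ - cos (2 * (n * θ) - θ) := by
  induction n with
  | zero => simp
  | succ n ih =>
    rw [sum_range_succ, mul_add, ih]
    have e : 2 * (((n + 1 : ℕ) : ℝ) * θ) - θ = 2 * (n * θ) + θ := by push_cast; ring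
    rw [e, cos_add, cos_sub]; ring

theorem sum_sq (A B θ : ℝ) (n : ℕ) (hs : sin θ ≠ 0) (hn : sin (n * θ) = 0) :
    ∑ k ∈ range n, (A * cos (k * θ) + B * sin (k * θ)) ^ 2 = n * (A ^ 2 + B ^ 2) / 2 := by
  have h1 : ∑ k ∈ range n, cos (2 * (k * θ)) = 0 := by
    have h := sum_cos_two θ n
    rw [sin_sub, sin_two_mul, cos_two_mul, cos_sq', hn] at h
    have h' : 2 * sin θ * ∑ k ∈ range n, cos (2 * (k * θ)) = 0 := by rw [h]; ring
    exact (mul_eq_zero.mp h').resolve_left (mul_ne_zero two_ne_zero hs)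
  have h2 : ∑ k ∈ range n, sin (2 * (k * θ)) = 0 := by
    have h := sum_sin_two θ n
    rw [cos_sub, sin_two_mul, cos_two_mul, cos_sq', hn] at h
    have h' : 2 * sin θ * ∑ k ∈ range n, sin (2 * (k * θ)) = 0 := by rw [h]; ring
    exact (mul_eq_zero.mp h').resolve_left (mul_ne_zero two_ne_zero hs)
  have h3 : ∀ k ∈ range n, (A * cos (k * θ) + B * sin (k * θ)) ^ 2
      = (A ^ 2 + B ^ 2) / 2 + (A ^ 2 - B ^ 2) / 2 * cos (2 * (k * θ))
        + A * B * sin (2 * (k * θ)) := by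
    intro k _
    rw [cos_two_mul, sin_two_mul]
    have := sin_sq_add_cos_sq ((k : ℝ) * θ)
    linear_combination (B ^ 2) * this
  rw [sum_congr rfl h3, sum_add_distrib, sum_add_distrib, ← mul_sum, ← mul_sum, h1, h2]
  simp
  ring

/-- normalised term -/
theorem term_closed (r θ s0 s1 : ℝ) (hr : r ≠ 0) (hs : sin θ ≠ 0) (k : ℕ) :
    rec2 (2 * r * cos θ) (r ^ 2) s0 s1 k ^ 2 / (r ^ 2) ^ k =
      (s0 * cos (k * θ) + (s1 - r * s0 * cos θ) / (r * sin θ) * sin (k * θ)) ^ 2 := by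
  rw [rec2_closed r θ s0 s1 hr hs k, mul_pow, ← pow_mul, ← pow_mul, mul_comm k 2]
  field_simp

/-- KEY LEMMA GL -/
theorem keyGL (r θ s0 s1 : ℝ) (hr : r ≠ 0) (hs : sin θ ≠ 0) (n : ℕ) (hn : sin (n * θ) = 0) :
    (∑ k ∈ range n, rec2 (2 * r * cos θ) (r ^ 2) s0 s1 k ^ 2 / (r ^ 2) ^ k) *
      (4 * r ^ 2 - (2 * r * cos θ) ^ 2) =
      2 * n * (s1 ^ 2 - (2 * r * cos θ) * s0 * s1 + r ^ 2 * s0 ^ 2) := by
  rw [sum_congr rfl (fun k _ => term_closed r θ s0 s1 hr hs k), sum_sq _ _ θ n hs hn]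
  have h4 : 4 * r ^ 2 - (2 * r * cos θ) ^ 2 = 4 * (r * sin θ) ^ 2 := by
    have := sin_sq_add_cos_sq θ
    linear_combination (-4 * r ^ 2) * this
  rw [h4]
  have hrs : r * sin θ ≠ 0 := mul_ne_zero hr hs
  have h5 : ((s1 - r * s0 * cos θ) / (r * sin θ)) ^ 2 * (r * sin θ) ^ 2
      = (s1 - r * s0 * cos θ) ^ 2 := by
    rw [← mul_pow, div_mul_cancel₀ _ hrs]
  have := sin_sq_add_cos_sq θ
  linear_combination (2 * n) * h5 + (2 * n * s0 ^ 2 * r ^ 2) * this

theorem sum_range_two_mul (f : ℕ → ℝ) (K : ℕ) :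
    ∑ k ∈ range (2 * K), f k = ∑ i ∈ range K, f (2 * i) + ∑ i ∈ range K, f (2 * i + 1) := by
  induction K with
  | zero => simp
  | succ K ih =>
    rw [show 2 * (K + 1) = 2 * K + 1 + 1 by ring, sum_range_succ, sum_range_succ, ih,
      sum_range_succ, sum_range_succ]
    ring

theorem alt_real_even (a b : ℝ) (i : ℕ) : alt a b (2 * i) = (a * b) ^ i := by
  induction i with
  | zero => simp
  | succ i ih =>
    rw [show 2 * (i + 1) = 2 * i + 1 + 1 by ring, alt_succ, alt_succ, ih]; ring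

theorem alt_real_odd (a b : ℝ) (i : ℕ) : alt a b (2 * i + 1) = a * (a * b) ^ i := by
  rw [alt_succ, alt_real_even, mul_comm b a]

theorem chi_even (a b x : ℝ) (i : ℕ) : chi a b x (2 * i) = rec2 x (a * b) 2 x i := by
  rw [chi, if_pos (by omega)]; congr 1; omega

theorem chi_odd (a b x : ℝ) (i : ℕ) :
    chi a b x (2 * i + 1) = rec2 x (a * b) (a - 1) (a * (b - 1) + (a - 1) * x) i := by
  rw [chi, if_neg (by omega)]; congr 1; omega

/-- abbreviations -/
noncomputable def fC (c x : ℝ) (i : ℕ) : ℝ := rec2 x c 2 x i ^ 2 / c ^ i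
noncomputable def fG (c x a b : ℝ) (i : ℕ) : ℝ :=
  rec2 x c (a - 1) (a * (b - 1) + (a - 1) * x) i ^ 2 / c ^ i

theorem Ssum_even (a b x : ℝ) (K : ℕ) :
    Ssum a b x (2 * K) = ∑ i ∈ range K, fC (a * b) x i + (∑ i ∈ range K, fG (a * b) x a b i) / a
      + (∑ i ∈ range K, fG (a * b) x b a i) / b + ∑ i ∈ range K, fC (a * b) x (i + 1) := by
  rw [Ssum, sum_range_two_mul, sum_range_two_mul, sum_div, sum_div]
  have e1 : ∀ i ∈ range K, chi a b x (2 * i) ^ 2 / alt a b (2 * i) = fC (a * b) x i := by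
    intro i _; rw [chi_even, alt_real_even, fC]
  have e2 : ∀ i ∈ range K, chi a b x (2 * i + 1) ^ 2 / alt a b (2 * i + 1)
      = fG (a * b) x a b i / a := by
    intro i _; rw [chi_odd, alt_real_odd, fG, div_div, mul_comm a ((a * b) ^ i)]
  have e3 : ∀ i ∈ range K, chi b a x (2 * i + 1) ^ 2 / alt b a (2 * i + 1)
      = fG (a * b) x b a i / b := by
    intro i _; rw [chi_odd, alt_real_odd, fG, div_div, mul_comm b a, mul_comm b ((a * b) ^ i)]
  have e4 : ∀ i ∈ range K, chi b a x (2 * i + 1 + 1) ^ 2 / alt b a (2 * i + 1 + 1)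
      = fC (a * b) x (i + 1) := by
    intro i _
    rw [show 2 * i + 1 + 1 = 2 * (i + 1) by ring, chi_even, alt_real_even, fC, mul_comm b a]
  rw [sum_congr rfl e1, sum_congr rfl e2, sum_congr rfl e3, sum_congr rfl e4]
  ring

theorem Ssum_odd (a b x : ℝ) (K : ℕ) :
    Ssum a b x (2 * K + 1) = ∑ i ∈ range (K + 1), fC (a * b) x i
      + (∑ i ∈ range K, fG (a * b) x a b i) / a
      + (∑ i ∈ range (K + 1), fG (a * b) x b a i) / b + ∑ i ∈ range K, fC (a * b) x (i + 1) := by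
  have h := Ssum_even a b x K
  rw [Ssum] at h ⊢
  rw [sum_range_succ, sum_range_succ, sum_range_succ _ K, sum_range_succ _ K, add_div]
  rw [chi_even, alt_real_even, chi_odd, alt_real_odd]
  have e1 : rec2 x (a * b) 2 x K ^ 2 / (a * b) ^ K = fC (a * b) x K := rfl
  have e2 : rec2 x (b * a) (b - 1) (b * (a - 1) + (b - 1) * x) K ^ 2 / (b * (b * a) ^ K)
      = fG (a * b) x b a K / b := by
    rw [fG, div_div, mul_comm b a, mul_comm b ((a * b) ^ K)]
  rw [e1, e2]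
  linear_combination h

theorem fC_closed (r θ : ℝ) (hr : r ≠ 0) (hs : sin θ ≠ 0) (k : ℕ) :
    fC (r ^ 2) (2 * r * cos θ) k = 4 * cos (k * θ) ^ 2 := by
  rw [fC, term_closed r θ _ _ hr hs k]
  have : (2 * r * cos θ - r * 2 * cos θ) / (r * sin θ) = 0 := by
    rw [show 2 * r * cos θ - r * 2 * cos θ = 0 by ring, zero_div]
  rw [this]; ring

theorem sum_fC (r θ : ℝ) (hr : r ≠ 0) (hs : sin θ ≠ 0) (n : ℕ) (hn : sin (n * θ) = 0) :
    ∑ i ∈ range n, fC (r ^ 2) (2 * r * cos θ) i = 2 * n := by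
  have h := sum_sq 2 0 θ n hs hn
  rw [sum_congr rfl (fun k _ => fC_closed r θ hr hs k)]
  have e : ∀ k ∈ range n, 4 * cos ((k : ℝ) * θ) ^ 2
      = (2 * cos (k * θ) + 0 * sin (k * θ)) ^ 2 := by
    intro k _; ring
  rw [sum_congr rfl e, h]; ring

theorem sum_fG (r θ a b : ℝ) (hr : r ≠ 0) (hs : sin θ ≠ 0) (n : ℕ) (hn : sin (n * θ) = 0) :
    (∑ i ∈ range n, fG (r ^ 2) (2 * r * cos θ) a b i) * (4 * r ^ 2 - (2 * r * cos θ) ^ 2) =
      2 * n * ((a * (b - 1) + (a - 1) * (2 * r * cos θ)) ^ 2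
        - (2 * r * cos θ) * (a - 1) * (a * (b - 1) + (a - 1) * (2 * r * cos θ))
        + r ^ 2 * (a - 1) ^ 2) :=
  keyGL r θ _ _ hr hs n hn

theorem fold1 (f : ℕ → ℝ) (K : ℕ) (hsym : ∀ i < K, f (i + 1) = f (2 * K - i)) :
    ∑ i ∈ range (K + 1), f i + ∑ i ∈ range K, f (i + 1) = ∑ i ∈ range (2 * K + 1), f i := by
  rw [show 2 * K + 1 = (K + 1) + K by ring, sum_range_add f (K + 1) K]
  congr 1
  rw [← sum_range_reflect (fun i => f (i + 1))]
  apply sum_congr rfl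
  intro i hi
  rw [mem_range] at hi
  rw [hsym (K - 1 - i) (by omega)]
  congr 1
  omega

theorem fold2 (g : ℕ → ℝ) (K : ℕ) (hsym : ∀ i < K, g i = g (2 * K - i)) :
    ∑ i ∈ range K, g i + ∑ i ∈ range (K + 1), g i = ∑ i ∈ range (2 * K + 1), g i := by
  rw [show 2 * K + 1 = (K + 1) + K by ring, sum_range_add g (K + 1) K, add_comm]
  congr 1
  rw [← sum_range_reflect g]
  apply sum_congr rfl
  intro i hi
  rw [mem_range] at hi
  rw [hsym (K - 1 - i) (by omega)]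
  congr 1
  omega

theorem Ssum_formula (a b : ℝ) (ha : 0 < a) (hb : 0 < b) (m j : ℕ) (hj : 0 < j) (hjm : 2 * j < m)
    (hodd : m % 2 = 1 → a = b) :
    Ssum a b (xj a b m j) m * (4 * a * b - xj a b m j ^ 2) =
      2 * m * (a * b + 1 - xj a b m j) * (a + b + xj a b m j) := by
  have hs := sin_theta_pos m j hj hjm
  have hr := sqrt_pos' a b ha hb
  have hr2 := sqrt_sq' a b ha hb
  have hmθ := sin_m_theta m j hj hjm
  set θ := 2 * π * j / m with hθ
  set r := √(a * b) with hrdef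
  have hx : xj a b m j = 2 * r * cos θ := rfl
  rw [hx]
  rcases Nat.mod_two_eq_zero_or_one m with h | h
  · obtain ⟨K, hK⟩ : ∃ K, m = 2 * K := ⟨m / 2, by omega⟩
    have hKθ := sin_half_theta m j hj hjm K hK
    rw [← hθ] at hKθ
    have hmK : (m : ℝ) = 2 * K := by exact_mod_cast hK
    rw [hK, Ssum_even, ← hr2, ← hK]
    have h1 := sum_fC r θ hr.ne' hs.ne' K hKθ
    have h2 := sum_fG r θ a b hr.ne' hs.ne' K hKθ
    have h3 := sum_fG r θ b a hr.ne' hs.ne' K hKθ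
    have h4 : ∑ i ∈ range K, fC (r ^ 2) (2 * r * cos θ) (i + 1) = 2 * K := by
      have e := sum_range_succ' (fC (r ^ 2) (2 * r * cos θ)) K
      rw [sum_range_succ, h1, fC_closed r θ hr.ne' hs.ne', fC_closed r θ hr.ne' hs.ne',
        cos_sq', hKθ] at e
      simp at e
      linarith
    rw [h1, h4, hmK]
    set SG1 := ∑ i ∈ range K, fG (r ^ 2) (2 * r * cos θ) a b i
    set SG2 := ∑ i ∈ range K, fG (r ^ 2) (2 * r * cos θ) b a i
    set x := 2 * r * cos θ
    have e : (2 * (K : ℝ) + SG1 / a + SG2 / b + 2 * K) * (4 * a * b - x ^ 2)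
        = 4 * K * (4 * a * b - x ^ 2) + (SG1 * (4 * r ^ 2 - x ^ 2)) / a
          + (SG2 * (4 * r ^ 2 - x ^ 2)) / b := by
      rw [hr2]; field_simp; ring
    rw [e, h2, h3, hr2]
    field_simp
    ring
  · obtain ⟨K, hK⟩ : ∃ K, m = 2 * K + 1 := ⟨m / 2, by omega⟩
    have hab := hodd h
    subst hab
    have hra : r = a := by
      rw [hrdef]; exact Real.sqrt_mul_self ha.le
    have hcm : cos ((m : ℝ) * θ) ^ 2 = 1 := by rw [cos_sq', hmθ]; ring
    have hmK : (m : ℝ) = 2 * K + 1 := by exact_mod_cast hK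
    rw [hK, Ssum_odd, ← hr2, ← hK]
    have h1 := sum_fC r θ hr.ne' hs.ne' m hmθ
    have h2 := sum_fG r θ a a hr.ne' hs.ne' m hmθ
    have f1 := fold1 (fC (r ^ 2) (2 * r * cos θ)) K (by
      intro i hi
      rw [fC_closed r θ hr.ne' hs.ne', fC_closed r θ hr.ne' hs.ne']
      have e : ((2 * K - i : ℕ) : ℝ) * θ = (m : ℝ) * θ - ((i + 1 : ℕ) : ℝ) * θ := by
        rw [Nat.cast_sub (by omega), hmK]; push_cast; ring
      rw [e, cos_sub, hmθ, zero_mul, add_zero, mul_pow, hcm, one_mul])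
    have f2 := fold2 (fG (r ^ 2) (2 * r * cos θ) a a) K (by
      intro i hi
      rw [fG, fG, term_closed r θ _ _ hr.ne' hs.ne', term_closed r θ _ _ hr.ne' hs.ne']
      set B := (a * (a - 1) + (a - 1) * (2 * r * cos θ) - r * (a - 1) * cos θ) / (r * sin θ)
        with hB
      have hBS : B * sin θ = (a - 1) * (1 + cos θ) := by
        rw [hB, hra]; field_simp; ring
      have e : ((2 * K - i : ℕ) : ℝ) * θ = (m : ℝ) * θ - (θ + (i : ℝ) * θ) := by
        rw [Nat.cast_sub (by omega), hmK]; push_cast; ring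
      rw [e, cos_sub, sin_sub, hmθ, zero_mul, zero_mul, add_zero, zero_sub]
      have key : (a - 1) * cos (θ + (i : ℝ) * θ) - B * sin (θ + (i : ℝ) * θ)
          = -((a - 1) * cos ((i : ℝ) * θ) + B * sin ((i : ℝ) * θ)) := by
        apply mul_right_cancel₀ hs.ne'
        rw [cos_add, sin_add]
        have := sin_sq_add_cos_sq θ
        linear_combination (-(sin θ * cos (i * θ) + cos θ * sin (i * θ)) + sin (i * θ)) * hBS
          - ((a - 1) * sin (i * θ)) * this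
      have e2 : ((a - 1) * (cos ((m : ℝ) * θ) * cos (θ + (i : ℝ) * θ))
          + B * -(cos ((m : ℝ) * θ) * sin (θ + (i : ℝ) * θ))) ^ 2
          = cos ((m : ℝ) * θ) ^ 2 * ((a - 1) * cos (θ + (i : ℝ) * θ)
            - B * sin (θ + (i : ℝ) * θ)) ^ 2 := by ring
      rw [e2, hcm, key]; ring)
    rw [← hK] at f1 f2
    set SC1 := ∑ i ∈ range (K + 1), fC (r ^ 2) (2 * r * cos θ) i
    set SC2 := ∑ i ∈ range K, fC (r ^ 2) (2 * r * cos θ) (i + 1)
    set SG1 := ∑ i ∈ range K, fG (r ^ 2) (2 * r * cos θ) a a i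
    set SG2 := ∑ i ∈ range (K + 1), fG (r ^ 2) (2 * r * cos θ) a a i
    set SG := ∑ i ∈ range m, fG (r ^ 2) (2 * r * cos θ) a a i
    set x := 2 * r * cos θ
    have e : (SC1 + SG1 / a + SG2 / a + SC2) * (4 * a * a - x ^ 2)
        = (SC1 + SC2) * (4 * a * a - x ^ 2) + ((SG1 + SG2) * (4 * r ^ 2 - x ^ 2)) / a := by
      rw [hr2]; field_simp; ring
    rw [e, f1, f2, h1, h2, hr2]
    field_simp
    ring

end Cfsg.Agent.Lib.Helper9.FH
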