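import Cfsg.Agent.Lib.Lead.HKK.GrLie
import Cfsg.Agent.Lib.Lead.HKK.Defs
import Cfsg.Agent.Lib.Helper91.HKKGc

/-!
# Ladder HKK, rung ASSOC: the associated Lie ring of a finite group
-/

set_option autoImplicit false

namespace Cfsg.Agent.Lib.Helper9.HKK

open Cfsg.Agent.Lib.Lead.HKK Cfsg.Agent.Lib.Helper91.HKK
open scoped commutatorElement
open DirectSum

universe u

section basic

variable (G : Type u) [Group G]

instance gamNormal (d : ℕ) : (Γ G d).Normal := inferInstance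

theorem gam_succ_le (d : ℕ) : Γ G (d + 1) ≤ Γ G d :=
  Subgroup.lowerCentralSeries_antitone _ (Nat.le_succ d)

/-- the factor `γ_{d+1} / γ_{d+2}` -/
abbrev Qd (d : ℕ) : Type u := ↥(Γ G d) ⧸ (Γ G (d + 1)).subgroupOf (Γ G d)

variable {G}

theorem comm_mem_succ (d : ℕ) (g h : G) (hg : g ∈ Γ G d) : ⁅g, h⁆ ∈ Γ G (d + 1) :=
  Subgroup.commutator_mem_commutator hg (Subgroup.mem_top h)

theorem aut_mem (α : MulAut G) (d : ℕ) (g : G) (hg : g ∈ Γ G d) : α g ∈ Γ G d := by
  have h := (inferInstance : (Γ G d).Characteristic).fixed α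
  have : g ∈ (Γ G d).comap α.toMonoidHom := by rw [h]; exact hg
  exact this

theorem Qd_mk_eq (d : ℕ) (g g' : G) (hg : g ∈ Γ G d) (hg' : g' ∈ Γ G d) :
    ((⟨g, hg⟩ : Γ G d) : Qd G d) = ((⟨g', hg'⟩ : Γ G d) : Qd G d) ↔ g⁻¹ * g' ∈ Γ G (d + 1) := by
  rw [QuotientGroup.eq, Subgroup.mem_subgroupOf]
  rfl

variable (G)

noncomputable instance QdComm (d : ℕ) : CommGroup (Qd G d) :=
  { (inferInstance : Group (Qd G d)) with
    mul_comm := by
      intro x y
      induction x using QuotientGroup.induction_on with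
      | H x =>
      induction y using QuotientGroup.induction_on with
      | H y =>
      obtain ⟨g, hg⟩ := x
      obtain ⟨h, hh⟩ := y
      rw [← QuotientGroup.mk_mul, ← QuotientGroup.mk_mul]
      refine (Qd_mk_eq d (g * h) (h * g) _ _).mpr ?_
      have := comm_mem_succ d h⁻¹ g⁻¹ (inv_mem hh)
      rw [commutatorElement_def] at this
      simpa [mul_assoc] using this }

/-- the homogeneous components of the associated Lie ring -/
abbrev Ad (d : ℕ) : Type u := Additive (Qd G d)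

variable {G}

/-- the class of `g ∈ γ_{d+1}` -/
def cl (d : ℕ) (g : G) (hg : g ∈ Γ G d) : Ad G d := Additive.ofMul ((⟨g, hg⟩ : Γ G d) : Qd G d)

theorem cl_surj (d : ℕ) (x : Ad G d) : ∃ g hg, x = cl d g hg := by
  induction x using Additive.rec with
  | ofMul x =>
  induction x using QuotientGroup.induction_on with
  | H x => exact ⟨x.1, x.2, rfl⟩

theorem cl_eq_iff (d : ℕ) (g g' : G) (hg : g ∈ Γ G d) (hg' : g' ∈ Γ G d) :
    cl d g hg = cl d g' hg' ↔ g⁻¹ * g' ∈ Γ G (d + 1) := by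
  rw [← Qd_mk_eq d g g' hg hg']
  exact Additive.ofMul.injective.eq_iff

theorem cl_mul (d : ℕ) (g h : G) (hg : g ∈ Γ G d) (hh : h ∈ Γ G d) :
    cl d (g * h) (mul_mem hg hh) = cl d g hg + cl d h hh := rfl

theorem cl_one (d : ℕ) : cl d (1 : G) (one_mem _) = 0 := rfl

theorem cl_inv (d : ℕ) (g : G) (hg : g ∈ Γ G d) :
    cl d g⁻¹ (inv_mem hg) = - cl d g hg := rfl

theorem cl_pow (d : ℕ) (g : G) (hg : g ∈ Γ G d) (N : ℕ) :
    cl d (g ^ N) (pow_mem hg N) = N • cl d g hg := rfl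

theorem cl_eq_zero_iff (d : ℕ) (g : G) (hg : g ∈ Γ G d) :
    cl d g hg = 0 ↔ g ∈ Γ G (d + 1) := by
  rw [← cl_one, eq_comm, cl_eq_iff]
  simp

theorem of_cl_congr (d d' : ℕ) (g g' : G) (hg : g ∈ Γ G d) (hg' : g' ∈ Γ G d') (hd : d = d')
    (h : g⁻¹ * g' ∈ Γ G (d + 1)) :
    of (Ad G) d (cl d g hg) = of (Ad G) d' (cl d' g' hg') := by
  subst hd
  rw [(cl_eq_iff d g g' hg hg').mpr h]

end basic

section bracket

variable {G : Type u} [Group G] [Finite G]

/-- `h ↦ class of ⁅g, h⁆` on `γ_{j+1}` -/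
noncomputable def brIn0 (i j : ℕ) (g : G) (hg : g ∈ Γ G i) : ↥(Γ G j) →* Qd G (i + j + 1) :=
  MonoidHom.mk' (fun h => ((⟨⁅g, h.1⁆, gc_mem i j g h.1 hg h.2⟩ : Γ G (i + j + 1)) : Qd G (i + j + 1)))
    (by
      rintro ⟨h, hh⟩ ⟨h', hh'⟩
      rw [← QuotientGroup.mk_mul]
      refine ((Qd_mk_eq (i + j + 1) _ _ _ _).mpr ?_).symm
      exact gc_mul_right i j g h h' hg hh hh')

/-- `class of h ↦ class of ⁅g, h⁆` -/
noncomputable def brIn (i j : ℕ) (g : G) (hg : g ∈ Γ G i) : Ad G j →+ Ad G (i + j + 1) :=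
  MonoidHom.toAdditive (QuotientGroup.lift _ (brIn0 i j g hg) (by
    rintro ⟨h, hh⟩ hh'
    rw [Subgroup.mem_subgroupOf] at hh'
    have h1 : ⁅g, h⁆ ∈ Γ G (i + (j + 1) + 1) := gc_mem i (j + 1) g h hg hh'
    have h2 := (cl_eq_zero_iff (i + j + 1) ⁅g, h⁆ (gc_mem i j g h hg hh)).mpr h1
    exact h2))

theorem brIn_cl (i j : ℕ) (g h : G) (hg : g ∈ Γ G i) (hh : h ∈ Γ G j) :
    brIn i j g hg (cl j h hh) = cl (i + j + 1) ⁅g, h⁆ (gc_mem i j g h hg hh) := rfl

/-- `g ↦ (class of h ↦ class of ⁅g, h⁆)` on `γ_{i+1}` -/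
noncomputable def brOut0 (i j : ℕ) : ↥(Γ G i) →* Multiplicative (Ad G j →+ Ad G (i + j + 1)) :=
  MonoidHom.mk' (fun g => Multiplicative.ofAdd (brIn i j g.1 g.2))
    (by
      rintro ⟨g, hg⟩ ⟨g', hg'⟩
      rw [← ofAdd_add]
      congr 1
      refine AddMonoidHom.ext fun x => ?_
      obtain ⟨h, hh, rfl⟩ := cl_surj j x
      rw [AddMonoidHom.add_apply]
      show brIn i j (g * g') _ (cl j h hh) = _
      rw [brIn_cl, brIn_cl, brIn_cl, ← cl_mul]
      refine ((cl_eq_iff (i + j + 1) _ _ _ _).mpr ?_).symm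
      exact gc_mul_left i j g g' h hg hg' hh)

/-- the bracket of homogeneous components -/
noncomputable def br (i j : ℕ) : Ad G i →+ Ad G j →+ Ad G (i + j + 1) :=
  MonoidHom.toAdditiveLeft (QuotientGroup.lift _ (brOut0 i j) (by
    rintro ⟨g, hg⟩ hg'
    rw [Subgroup.mem_subgroupOf] at hg'
    show Multiplicative.ofAdd (brIn i j g hg) = Multiplicative.ofAdd 0
    congr 1
    refine AddMonoidHom.ext fun x => ?_
    obtain ⟨h, hh, rfl⟩ := cl_surj j x
    rw [brIn_cl, AddMonoidHom.zero_apply, cl_eq_zero_iff]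
    have h1 : ⁅g, h⁆ ∈ Γ G (i + 1 + j + 1) := gc_mem (i + 1) j g h hg' hh
    have e : i + 1 + j + 1 = i + j + 1 + 1 := by omega
    rwa [e] at h1))

theorem br_cl (i j : ℕ) (g h : G) (hg : g ∈ Γ G i) (hh : h ∈ Γ G j) :
    br i j (cl i g hg) (cl j h hh) = cl (i + j + 1) ⁅g, h⁆ (gc_mem i j g h hg hh) := rfl

theorem br_alt (i : ℕ) (x : Ad G i) : br i i x x = 0 := by
  obtain ⟨g, hg, rfl⟩ := cl_surj i x
  rw [br_cl, cl_eq_zero_iff, commutatorElement_self]
  exact one_mem _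

theorem br_skew (i j : ℕ) (x : Ad G i) (y : Ad G j) :
    of (Ad G) (i + j + 1) (br i j x y) = - of (Ad G) (j + i + 1) (br j i y x) := by
  obtain ⟨g, hg, rfl⟩ := cl_surj i x
  obtain ⟨h, hh, rfl⟩ := cl_surj j y
  rw [br_cl, br_cl, ← map_neg, ← cl_inv]
  refine of_cl_congr _ _ _ _ _ _ (by omega) ?_
  rw [commutatorElement_inv, mul_inv_cancel]
  exact one_mem _

theorem br_jac (i j k : ℕ) (x : Ad G i) (y : Ad G j) (z : Ad G k) :
    of (Ad G) (i + (j + k + 1) + 1) (br i (j + k + 1) x (br j k y z))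
      = of (Ad G) (i + j + 1 + k + 1) (br (i + j + 1) k (br i j x y) z)
        + of (Ad G) (j + (i + k + 1) + 1) (br j (i + k + 1) y (br i k x z)) := by
  obtain ⟨g, hg, rfl⟩ := cl_surj i x
  obtain ⟨h, hh, rfl⟩ := cl_surj j y
  obtain ⟨l, hl, rfl⟩ := cl_surj k z
  simp only [br_cl]
  have e1 : j + (i + k + 1) + 1 = i + j + 1 + k + 1 := by omega
  have m1 : ⁅h, ⁅g, l⁆⁆ ∈ Γ G (i + j + 1 + k + 1) := by
    rw [← e1]; exact gc_mem _ _ _ _ hh (gc_mem _ _ _ _ hg hl)
  rw [of_cl_congr (j + (i + k + 1) + 1) (i + j + 1 + k + 1) ⁅h, ⁅g, l⁆⁆ ⁅h, ⁅g, l⁆⁆ _ m1 e1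
    (by rw [inv_mul_cancel]; exact one_mem _), ← map_add, ← cl_mul]
  refine (of_cl_congr _ _ _ _ _ _ (by omega) ?_).symm
  have := gc_jacobi i j k g h l hg hh hl
  have e : i + j + k + 3 = i + j + 1 + k + 1 + 1 := by omega
  rwa [e] at this

end bracket

section ring

variable (G : Type u) [Group G] [Finite G]

/-- the associated Lie ring -/
abbrev AL : Type u := ⨁ d, Ad G d

noncomputable instance ALLie : LieRing (AL G) :=
  grLieRing (A := Ad G) br br_alt br_skew br_jac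

variable {G}

theorem lie_of_of (i j : ℕ) (x : Ad G i) (y : Ad G j) :
    ⁅(of (Ad G) i x : AL G), (of (Ad G) j y : AL G)⁆ = of (Ad G) (i + j + 1) (br i j x y) :=
  grBr_of_of br i j x y

/-- the map induced by an automorphism on `γ_{d+1}` -/
def autG (α : MulAut G) (d : ℕ) : ↥(Γ G d) →* ↥(Γ G d) :=
  (α.toMonoidHom.comp (Γ G d).subtype).codRestrict (Γ G d) (fun g => aut_mem α d g.1 g.2)

/-- the map induced by an automorphism on a homogeneous component -/
noncomputable def autA (α : MulAut G) (d : ℕ) : Ad G d →+ Ad G d :=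
  MonoidHom.toAdditive (QuotientGroup.map _ _ (autG α d) (by
    rintro ⟨g, hg⟩ hg'
    rw [Subgroup.mem_subgroupOf] at hg'
    rw [Subgroup.mem_comap, Subgroup.mem_subgroupOf]
    exact aut_mem α (d + 1) g hg'))

theorem autA_cl (α : MulAut G) (d : ℕ) (g : G) (hg : g ∈ Γ G d) :
    autA α d (cl d g hg) = cl d (α g) (aut_mem α d g hg) := rfl

/-- the additive endomorphism of the associated Lie ring induced by an automorphism -/
noncomputable def autL0 (α : MulAut G) : AL G →+ AL G := DirectSum.map (autA α)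

theorem autL0_of_cl (α : MulAut G) (d : ℕ) (g : G) (hg : g ∈ Γ G d) :
    autL0 α (of (Ad G) d (cl d g hg)) = of (Ad G) d (cl d (α g) (aut_mem α d g hg)) := by
  rw [autL0, DirectSum.map_of, autA_cl]

theorem autL0_comp (α β : MulAut G) (h : ∀ g, β (α g) = g) :
    (autL0 β).comp (autL0 α) = AddMonoidHom.id _ := by
  refine DirectSum.addHom_ext fun d x => ?_
  obtain ⟨g, hg, rfl⟩ := cl_surj d x
  rw [AddMonoidHom.comp_apply, autL0_of_cl, autL0_of_cl, AddMonoidHom.id_apply]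
  simp only [h]

/-- the additive automorphism of the associated Lie ring induced by an automorphism -/
noncomputable def autL (α : MulAut G) : AL G ≃+ AL G :=
  AddMonoidHom.toAddEquiv (autL0 α) (autL0 α⁻¹)
    (autL0_comp α α⁻¹ (fun g => by simp)) (autL0_comp α⁻¹ α (fun g => by simp))

theorem autL_apply (α : MulAut G) (x : AL G) : autL α x = autL0 α x := rfl

theorem autL_lie (α : MulAut G) (x y : AL G) : autL α ⁅x, y⁆ = ⁅autL α x, autL α y⁆ := by
  induction x using DirectSum.induction_on with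
  | zero => simp
  | add x x' hx hx' => rw [add_lie, map_add, map_add, add_lie, hx, hx']
  | of i x =>
    induction y using DirectSum.induction_on with
    | zero => simp
    | add y y' hy hy' => rw [lie_add, map_add, map_add, lie_add, hy, hy']
    | of j y =>
      obtain ⟨g, hg, rfl⟩ := cl_surj i x
      obtain ⟨h, hh, rfl⟩ := cl_surj j y
      rw [lie_of_of, br_cl, autL_apply, autL_apply, autL_apply, autL0_of_cl, autL0_of_cl,
        autL0_of_cl, lie_of_of, br_cl]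
      simp only [map_commutatorElement]

open Classical in
/-- the class map -/
noncomputable def cls (d : ℕ) (g : G) : AL G :=
  if h : g ∈ Γ G d then of (Ad G) d (cl d g h) else 0

theorem cls_of_mem (d : ℕ) (g : G) (h : g ∈ Γ G d) : cls d g = of (Ad G) d (cl d g h) :=
  dif_pos h

end ring

theorem exists_assoc (G : Type u) [Group G] [Finite G] (α : MulAut G) :
    ∃ (L : Type u) (_ : LieRing L) (φ : L ≃+ L) (cls : ℕ → G → L),
      (∀ x y : L, φ ⁅x, y⁆ = ⁅φ x, φ y⁆) ∧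
      (∀ d g h, g ∈ Γ G d → h ∈ Γ G d → cls d (g * h) = cls d g + cls d h) ∧
      (∀ d g, g ∈ Γ G d → (cls d g = 0 ↔ g ∈ Γ G (d + 1))) ∧
      (∀ a b g h, g ∈ Γ G a → h ∈ Γ G b →
        ⁅cls a g, cls b h⁆ = cls (a + b + 1) (g * h * g⁻¹ * h⁻¹)) ∧
      (∀ d g, g ∈ Γ G d → φ (cls d g) = cls d (α g)) ∧
      (∀ x : L, x ∈ AddSubgroup.closure {y | ∃ d g, g ∈ Γ G d ∧ y = cls d g}) ∧
      (∀ N : ℕ, (∀ d g, g ∈ Γ G d → g⁻¹ * α g ∈ Γ G (d + 1) → g ^ N ∈ Γ G (d + 1)) →
        ∀ x : L, φ x = x → N • x = 0) := by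
  refine ⟨AL G, ALLie G, autL α, cls, autL_lie α, ?_, ?_, ?_, ?_, ?_, ?_⟩
  · intro d g h hg hh
    rw [cls_of_mem d g hg, cls_of_mem d h hh, cls_of_mem d (g * h) (mul_mem hg hh), cl_mul, map_add]
  · intro d g hg
    rw [cls_of_mem d g hg, ← cl_eq_zero_iff d g hg, ← map_zero (of (Ad G) d)]
    exact (DirectSum.of_injective d).eq_iff
  · intro a b g h hg hh
    rw [cls_of_mem a g hg, cls_of_mem b h hh, lie_of_of, br_cl, ← commutatorElement_def,
      cls_of_mem _ _ (gc_mem a b g h hg hh)]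
  · intro d g hg
    rw [cls_of_mem d g hg, cls_of_mem d (α g) (aut_mem α d g hg), autL_apply, autL0_of_cl]
  · intro x
    induction x using DirectSum.induction_on with
    | zero => exact zero_mem _
    | add x y hx hy => exact add_mem hx hy
    | of d x =>
      obtain ⟨g, hg, rfl⟩ := cl_surj d x
      exact AddSubgroup.subset_closure ⟨d, g, hg, (cls_of_mem d g hg).symm⟩
  · intro N hN x hx
    refine DFinsupp.ext fun d => ?_
    have h1 : autA α d (x d) = x d := by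
      have := congrArg (fun y : AL G => y d) hx
      simpa [autL_apply, autL0, DirectSum.map_apply] using this
    obtain ⟨g, hg, hxg⟩ := cl_surj d (x d)
    rw [hxg, autA_cl, eq_comm, cl_eq_iff] at h1
    have h2 := hN d g hg h1
    show (N • x) d = 0
    rw [DirectSum.smul_apply, hxg, ← cl_pow, cl_eq_zero_iff]
    exact h2

end Cfsg.Agent.Lib.Helper9.HKK
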