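import Cfsg.Agent.Lib.Helper9.M12Gen
import Cfsg.Agent.Lib.Helper9.GolayFacts
import Cfsg.Agent.Lib.Helper33.OctData

set_option autoImplicit false

namespace Cfsg.Agent.Lib.Helper9

open Cfsg Cfsg.Agent.Lib.Helper33
open scoped Pointwise

/-- Number of octads meeting the subset coded by `m` in exactly `k` points. -/
theorem ncard_octads_inter (m k : ℕ) :
    {o : Finset GolayPt | o ∈ octads ∧ (o ∩ unmask m).card = k}.ncard =
      countLt (fun j => Nat.beq (Helper33.popc (Nat.land (fld24 octTab j) m)) k) 759 0 := by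
  obtain ⟨h1, h2, h3⟩ := codeFam_spec oct_fam
  have hset : {o : Finset GolayPt | o ∈ octads ∧ (o ∩ unmask m).card = k} =
      (fun j => unmask (fld24 octTab j)) ''
        (((Finset.range 759).filter fun j =>
          Nat.beq (Helper33.popc (Nat.land (fld24 octTab j) m)) k = true : Finset ℕ) : Set ℕ) := by
    ext o
    simp only [Set.mem_ofPred_eq, Set.mem_image, Finset.coe_filter, Finset.mem_range]
    constructor
    · rintro ⟨ho, hc⟩
      obtain ⟨j, hj, rfl⟩ := h1 o ho
      rw [card_inter_unmask _ _ (fld24_lt _ _)] at hc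
      exact ⟨j, ⟨hj, by rw [hc]; exact Nat.beq_refl k⟩, rfl⟩
    · rintro ⟨j, ⟨hj, hc⟩, rfl⟩
      exact ⟨h2 j hj, by rw [card_inter_unmask _ _ (fld24_lt _ _)]; exact Nat.eq_of_beq_eq_true hc⟩
  rw [hset, Set.InjOn.ncard_image, Set.ncard_coe_finset, countLt_spec, zero_add]
  intro a ha b hb hab
  simp only [Finset.coe_filter, Finset.mem_range, Set.mem_ofPred_eq] at ha hb
  exact h3 a ha.1 b hb.1 (unmask_inj (fld24_lt _ _) (fld24_lt _ _) hab)

/-- The count only depends on the `M24`-orbit of the subset. -/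
theorem ncard_octads_inter_smul {u : Equiv.Perm GolayPt} (hu : u ∈ M24) (d : Finset GolayPt)
    (k : ℕ) : {o : Finset GolayPt | o ∈ octads ∧ (o ∩ d).card = k}.ncard =
      {o : Finset GolayPt | o ∈ octads ∧ (o ∩ (u • d)).card = k}.ncard := by
  have : {o : Finset GolayPt | o ∈ octads ∧ (o ∩ (u • d)).card = k} =
      (fun o => u • o) '' {o : Finset GolayPt | o ∈ octads ∧ (o ∩ d).card = k} := by
    ext o
    simp only [Set.mem_ofPred_eq, Set.mem_image]
    constructor
    · rintro ⟨ho, hc⟩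
      refine ⟨u⁻¹ • o, ⟨smul_mem_octads (M24.inv_mem hu) ho, ?_⟩, smul_inv_smul u o⟩
      rw [← card_inter_smul u, smul_inv_smul]; exact hc
    · rintro ⟨o', ⟨ho, hc⟩, rfl⟩
      exact ⟨smul_mem_octads hu ho, by rw [card_inter_smul]; exact hc⟩
  rw [this, Set.ncard_image_of_injective _ (MulAction.injective u)]

theorem hex_count6 :
    countLt (fun j => Nat.beq (Helper33.popc (Nat.land (fld24 octTab j) D0)) 6) 759 0 = 132 := by
  decide +kernel
theorem hex_count2 :
    countLt (fun j => Nat.beq (Helper33.popc (Nat.land (fld24 octTab j) D0)) 2) 759 0 = 132 := by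
  decide +kernel
theorem hex_count4 :
    countLt (fun j => Nat.beq (Helper33.popc (Nat.land (fld24 octTab j) D0)) 4) 759 0 = 495 := by
  decide +kernel

theorem octads_dodecad_counts (d : Finset GolayPt) (hd : d ∈ dodecads) :
    {o : Finset GolayPt | o ∈ octads ∧ (o ∩ d).card = 6}.ncard = 132 ∧
    {o : Finset GolayPt | o ∈ octads ∧ (o ∩ d).card = 2}.ncard = 132 ∧
    {o : Finset GolayPt | o ∈ octads ∧ (o ∩ d).card = 4}.ncard = 495 := by
  obtain ⟨u, hu, hud⟩ := dod_to_base hd
  refine ⟨?_, ?_, ?_⟩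
  · rw [ncard_octads_inter_smul hu, hud, ncard_octads_inter, hex_count6]
  · rw [ncard_octads_inter_smul hu, hud, ncard_octads_inter, hex_count2]
  · rw [ncard_octads_inter_smul hu, hud, ncard_octads_inter, hex_count4]

end Cfsg.Agent.Lib.Helper9
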