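import Cfsg.Agent.Lib.Helper9.Leech2
import Cfsg.Agent.Lib.Helper9.GolayFacts

set_option autoImplicit false

/-!
Counting the vectors of given norm in the Leech lattice by a generating number.
-/

namespace Cfsg.Agent.Lib.Helper9

open Cfsg Cfsg.Agent.Lib.Helper10

/-- integer lift of a bit -/
def cz (c : GolayPt → ZMod 2) (j : GolayPt) : ℤ := if c j = 0 then 0 else 1

theorem cz_red2 (z : GolayPt → ℤ) (j : GolayPt) : cz (red2 z) j = z j % 2 := by
  unfold cz
  by_cases h : z j % 2 = 1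
  · rw [if_neg ((red2_ne_zero_iff z j).2 h), h]
  · have : red2 z j = 0 := by
      by_contra h'
      exact h ((red2_ne_zero_iff z j).1 h')
    rw [if_pos this]; omega

theorem sum_cz (c : GolayPt → ZMod 2) : ∑ j, cz c j = ((support₂ c).card : ℤ) := by
  rw [support₂, Finset.card_filter]
  push_cast
  apply Finset.sum_congr rfl
  intro j _
  unfold cz
  by_cases h : c j = 0 <;> simp [h]

theorem mem_leech_iff4 (x : GolayPt → ℤ) : x ∈ leechLattice ↔
    ∃ (e : ℤ) (c : GolayPt → ZMod 2), (e = 0 ∨ e = 1) ∧ c ∈ golayCode ∧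
      (∀ j, x j % 4 = e + 2 * cz c j) ∧ (∑ j, x j / 4) % 2 = e := by
  rw [mem_leechLattice_iff_mem_leechSet, mem_leechSet_iff']
  constructor
  · rintro ⟨e, z, he, h1, h2, h3⟩
    refine ⟨e, red2 z, he, h3, fun j => ?_, ?_⟩
    · rw [cz_red2, h1 j]; omega
    · have e1 : ∀ j, x j / 4 = z j / 2 := fun j => by rw [h1 j]; omega
      have e2 : ∑ j, z j = ∑ j, cz (red2 z) j + 2 * ∑ j, z j / 2 := by
        rw [Finset.mul_sum, ← Finset.sum_add_distrib]
        apply Finset.sum_congr rfl
        intro j _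
        rw [cz_red2]; omega
      rw [sum_cz] at e2
      obtain ⟨q, hq⟩ := golay_doubly_even_word _ h3
      rw [Finset.sum_congr rfl (fun j _ => e1 j)]
      rw [e2, hq] at h2
      push_cast at h2
      omega
  · rintro ⟨e, c, he, hc, h1, h2⟩
    have hcz : ∀ j, cz c j = 0 ∨ cz c j = 1 := fun j => by
      unfold cz; by_cases h : c j = 0 <;> simp [h]
    have hred : red2 (fun j => (x j - e) / 2) = c := by
      funext j
      have h3 : cz (red2 fun j => (x j - e) / 2) j = ((x j - e) / 2) % 2 :=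
        cz_red2 (fun j => (x j - e) / 2) j
      have h4 : ((x j - e) / 2) % 2 = cz c j := by
        have := h1 j; have := hcz j; omega
      rw [h4] at h3
      unfold cz at h3
      by_cases ha : red2 (fun j => (x j - e) / 2) j = 0 <;> by_cases hb : c j = 0
      · rw [ha, hb]
      · rw [if_pos ha, if_neg hb] at h3; omega
      · rw [if_neg ha, if_pos hb] at h3; omega
      · rw [(zmod2_ne_zero_iff _).1 ha, (zmod2_ne_zero_iff _).1 hb]
    refine ⟨e, fun j => (x j - e) / 2, he, fun j => ?_, ?_, by rw [hred]; exact hc⟩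
    · have := h1 j; have := hcz j
      show x j = e + 2 * ((x j - e) / 2)
      omega
    · have e1 : ∀ j, (x j - e) / 2 = cz c j + 2 * (x j / 4) := fun j => by
        have := h1 j; have := hcz j; omega
      rw [Finset.sum_congr rfl (fun j _ => e1 j), Finset.sum_add_distrib, ← Finset.mul_sum, sum_cz]
      obtain ⟨q, hq⟩ := golay_doubly_even_word _ hc
      rw [hq]
      push_cast
      omega

/-! ### extraction of a digit -/

theorem digit_count {α : Type*} (S : Finset α) (f : α → ℕ) (B : ℕ) (hB : S.card < B) (k : ℕ) :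
    (∑ x ∈ S, B ^ f x) / B ^ k % B = (S.filter (fun x => f x = k)).card := by
  classical
  have hB0 : 0 < B := by omega
  have hpos : 0 < B ^ k := Nat.pow_pos hB0
  -- split
  have h1 : ∑ x ∈ S, B ^ f x = ∑ x ∈ S.filter (fun x => f x < k), B ^ f x +
      (∑ x ∈ S.filter (fun x => f x = k), B ^ f x + ∑ x ∈ S.filter (fun x => k < f x), B ^ f x) := by
    rw [← Finset.sum_filter_add_sum_filter_not S (fun x => f x < k)]
    congr 1
    rw [← Finset.sum_filter_add_sum_filter_not (S.filter (fun x => ¬ f x < k)) (fun x => f x = k)]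
    congr 1
    · apply Finset.sum_congr _ (fun _ _ => rfl)
      ext x; simp only [Finset.mem_filter]; constructor
      · rintro ⟨⟨a, _⟩, b⟩; exact ⟨a, b⟩
      · rintro ⟨a, b⟩; exact ⟨⟨a, by omega⟩, b⟩
    · apply Finset.sum_congr _ (fun _ _ => rfl)
      ext x; simp only [Finset.mem_filter]; constructor
      · rintro ⟨⟨a, b⟩, c⟩; exact ⟨a, by omega⟩
      · rintro ⟨a, b⟩; exact ⟨⟨a, by omega⟩, by omega⟩
  have h2 : ∑ x ∈ S.filter (fun x => f x = k), B ^ f x =
      (S.filter (fun x => f x = k)).card * B ^ k := by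
    rw [Finset.sum_congr rfl (fun x hx => by rw [(Finset.mem_filter.1 hx).2]), Finset.sum_const,
      smul_eq_mul]
  have h3 : ∑ x ∈ S.filter (fun x => k < f x), B ^ f x =
      (B * ∑ x ∈ S.filter (fun x => k < f x), B ^ (f x - k - 1)) * B ^ k := by
    rw [Finset.mul_sum, Finset.sum_mul]
    apply Finset.sum_congr rfl
    intro x hx
    have := (Finset.mem_filter.1 hx).2
    rw [← pow_succ', ← pow_add]
    congr 1; omega
  have h4 : ∑ x ∈ S.filter (fun x => f x < k), B ^ f x < B ^ k := by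
    rcases Nat.eq_zero_or_pos k with rfl | hk
    · simp
    · calc ∑ x ∈ S.filter (fun x => f x < k), B ^ f x
          ≤ ∑ x ∈ S.filter (fun x => f x < k), B ^ (k - 1) := by
            apply Finset.sum_le_sum
            intro x hx
            have := (Finset.mem_filter.1 hx).2
            exact Nat.pow_le_pow_right hB0 (by omega)
        _ = (S.filter (fun x => f x < k)).card * B ^ (k - 1) := by
            rw [Finset.sum_const, smul_eq_mul]
        _ ≤ S.card * B ^ (k - 1) := Nat.mul_le_mul_right _ (Finset.card_filter_le _ _)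
        _ < B * B ^ (k - 1) := Nat.mul_lt_mul_of_pos_right hB (Nat.pow_pos hB0)
        _ = B ^ k := by rw [← pow_succ']; congr 1; omega
  rw [h1, h2, h3, ← add_mul, Nat.add_mul_div_right _ _ hpos, Nat.div_eq_of_lt h4, zero_add,
    Nat.add_mul_mod_self_left, Nat.mod_eq_of_lt]
  exact lt_of_le_of_lt (Finset.card_filter_le _ _) hB

/-! ### the generating number -/

noncomputable def bx (r : ℤ) : Finset ℤ := (Finset.Icc (-8 : ℤ) 8).filter (fun v => v % 4 = r)
def sg (v : ℤ) : ℤ := if (v / 4) % 2 = 0 then 1 else -1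
def ph (B : ℤ) (v : ℤ) : ℤ := B ^ (v.natAbs ^ 2)
noncomputable def Gp (B r : ℤ) : ℤ := ∑ v ∈ bx r, ph B v
noncomputable def Gm (B r : ℤ) : ℤ := ∑ v ∈ bx r, sg v * ph B v
def se (e : ℤ) : ℤ := if e = 0 then 1 else -1

noncomputable def box : Finset (GolayPt → ℤ) := Fintype.piFinset (fun _ => Finset.Icc (-8 : ℤ) 8)
theorem box_eq : box = Fintype.piFinset (fun _ => Finset.Icc (-8 : ℤ) 8) := rfl
attribute [irreducible] box

open Classical in
noncomputable def Lbox : Finset (GolayPt → ℤ) := box.filter (fun x => x ∈ leechLattice)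
open Classical in
theorem Lbox_eq : Lbox = box.filter (fun x => x ∈ leechLattice) := rfl
attribute [irreducible] Lbox

def Cfin : Finset (GolayPt → ZMod 2) := (Finset.range 4096).image (fun k => wordOf (cw k))
theorem Cfin_eq : Cfin = (Finset.range 4096).image (fun k => wordOf (cw k)) := rfl
attribute [irreducible] Cfin

theorem mem_Cfin (c : GolayPt → ZMod 2) : c ∈ Cfin ↔ c ∈ golayCode := by
  rw [Cfin_eq, Finset.mem_image, mem_golayCode_iff]
  constructor
  · rintro ⟨k, hk, rfl⟩; exact ⟨k, Finset.mem_range.1 hk, rfl⟩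
  · rintro ⟨k, hk, rfl⟩; exact ⟨k, Finset.mem_range.2 hk, rfl⟩

noncomputable def TT (e : ℤ) (c : GolayPt → ZMod 2) : Finset (GolayPt → ℤ) :=
  Fintype.piFinset (fun j => bx (e + 2 * cz c j))
theorem TT_eq (e : ℤ) (c : GolayPt → ZMod 2) :
    TT e c = Fintype.piFinset (fun j => bx (e + 2 * cz c j)) := rfl
attribute [irreducible] TT

theorem mem_bx (r v : ℤ) : v ∈ bx r ↔ (-8 ≤ v ∧ v ≤ 8) ∧ v % 4 = r := by
  simp [bx]

theorem mem_box (x : GolayPt → ℤ) : x ∈ box ↔ ∀ j, -8 ≤ x j ∧ x j ≤ 8 := by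
  rw [box_eq, Fintype.mem_piFinset]
  simp only [Finset.mem_Icc]

open Classical in
theorem mem_Lbox (x : GolayPt → ℤ) : x ∈ Lbox ↔ x ∈ box ∧ x ∈ leechLattice := by
  rw [Lbox_eq, Finset.mem_filter]

theorem mem_TT (e : ℤ) (c : GolayPt → ZMod 2) (x : GolayPt → ℤ) :
    x ∈ TT e c ↔ ∀ j, (-8 ≤ x j ∧ x j ≤ 8) ∧ x j % 4 = e + 2 * cz c j := by
  rw [TT_eq, Fintype.mem_piFinset]
  simp only [mem_bx]

def gmap (x : GolayPt → ℤ) : ℤ × (GolayPt → ZMod 2) :=
  (x none % 2, fun j => ((x j % 4 / 2 : ℤ) : ZMod 2))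

theorem cz_cases (c : GolayPt → ZMod 2) (j : GolayPt) : cz c j = 0 ∨ cz c j = 1 := by
  unfold cz; by_cases h : c j = 0 <;> simp [h]

theorem cast_cz (c : GolayPt → ZMod 2) (j : GolayPt) : ((cz c j : ℤ) : ZMod 2) = c j := by
  unfold cz
  by_cases h : c j = 0
  · rw [if_pos h, h]; simp
  · rw [if_neg h, (zmod2_ne_zero_iff _).1 h]; simp

theorem gmap_eq {x : GolayPt → ℤ} {e : ℤ} {c : GolayPt → ZMod 2} (he : e = 0 ∨ e = 1)
    (h1 : ∀ j, x j % 4 = e + 2 * cz c j) : gmap x = (e, c) := by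
  apply Prod.ext
  · show x none % 2 = e
    have := h1 none; have := cz_cases c none; omega
  · funext j
    show ((x j % 4 / 2 : ℤ) : ZMod 2) = c j
    have : x j % 4 / 2 = cz c j := by
      have := h1 j; have := cz_cases c j; omega
    rw [this, cast_cz]

open Classical in
theorem fiber_eq {e : ℤ} (he : e = 0 ∨ e = 1) {c : GolayPt → ZMod 2} (hc : c ∈ golayCode) :
    Lbox.filter (fun x => gmap x = (e, c)) =
      (TT e c).filter (fun x => (∑ j, x j / 4) % 2 = e) := by
  ext x
  rw [Finset.mem_filter, Finset.mem_filter, mem_Lbox, mem_box, mem_TT]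
  constructor
  · rintro ⟨⟨hb, hL⟩, hg⟩
    obtain ⟨e', c', he', _, h1, h2⟩ := (mem_leech_iff4 x).1 hL
    rw [gmap_eq he' h1] at hg
    obtain ⟨rfl, rfl⟩ := Prod.mk.inj hg
    exact ⟨fun j => ⟨hb j, h1 j⟩, h2⟩
  · rintro ⟨hT, h2⟩
    exact ⟨⟨fun j => (hT j).1, (mem_leech_iff4 x).2 ⟨e, c, he, hc, fun j => (hT j).2, h2⟩⟩,
      gmap_eq he (fun j => (hT j).2)⟩

theorem prod_sg (x : GolayPt → ℤ) (s : Finset GolayPt) :
    ∏ j ∈ s, sg (x j) = if (∑ j ∈ s, x j / 4) % 2 = 0 then 1 else -1 := by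
  classical
  induction s using Finset.induction_on with
  | empty => simp
  | insert a s ha ih =>
    rw [Finset.prod_insert ha, Finset.sum_insert ha, ih, sg]
    by_cases h1 : (x a / 4) % 2 = 0 <;> by_cases h2 : (∑ j ∈ s, x j / 4) % 2 = 0
    · rw [if_pos h1, if_pos h2, if_pos (by omega)]; norm_num
    · rw [if_pos h1, if_neg h2, if_neg (by omega)]; norm_num
    · rw [if_neg h1, if_pos h2, if_neg (by omega)]; norm_num
    · rw [if_neg h1, if_neg h2, if_pos (by omega)]; norm_num

theorem two_mul_fiber (B : ℤ) {e : ℤ} (he : e = 0 ∨ e = 1) (c : GolayPt → ZMod 2) :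
    2 * ∑ x ∈ (TT e c).filter (fun x => (∑ j, x j / 4) % 2 = e), ∏ j, ph B (x j) =
      ∏ j, Gp B (e + 2 * cz c j) + se e * ∏ j, Gm B (e + 2 * cz c j) := by
  unfold Gp Gm
  rw [TT_eq, Finset.prod_univ_sum, Finset.prod_univ_sum, Finset.sum_filter, Finset.mul_sum,
    Finset.mul_sum, ← Finset.sum_add_distrib]
  apply Finset.sum_congr rfl
  intro x _
  rw [Finset.prod_mul_distrib, prod_sg, se]
  rcases he with rfl | rfl
  · by_cases h : (∑ j, x j / 4) % 2 = 0
    · rw [if_pos h, if_pos h, if_pos rfl]; ring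
    · rw [if_neg h, if_neg h, if_pos rfl]; ring
  · by_cases h : (∑ j, x j / 4) % 2 = 0
    · rw [if_neg (by omega), if_pos h, if_neg (by norm_num)]; ring
    · rw [if_pos (by omega), if_neg h, if_neg (by norm_num)]; ring

theorem prod_by_weight (f : ℤ → ℤ) (e : ℤ) (c : GolayPt → ZMod 2) :
    ∏ j, f (e + 2 * cz c j) = f (e + 2) ^ (support₂ c).card * f e ^ (24 - (support₂ c).card) := by
  have h1 : ∀ j, f (e + 2 * cz c j) = if c j ≠ 0 then f (e + 2) else f e := by
    intro j
    unfold cz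
    by_cases h : c j = 0
    · rw [if_pos h, if_neg (by simpa using h)]; simp
    · rw [if_neg h, if_pos h]; simp
  rw [Finset.prod_congr rfl (fun j _ => h1 j), Finset.prod_ite, Finset.prod_const,
    Finset.prod_const]
  have h2 := Finset.card_filter_add_card_filter_not (s := (Finset.univ : Finset GolayPt))
    (fun j => c j ≠ 0)
  rw [Finset.card_univ, card_golayPt] at h2
  have h3 : (Finset.univ.filter fun j => ¬ c j ≠ 0).card = 24 - (support₂ c).card := by
    unfold support₂; omega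
  rw [h3]; rfl

theorem count0 : countLt (fun k => popc 24 (cw k) == 0) 4096 0 = 1 := by decide +kernel
theorem count24 : countLt (fun k => popc 24 (cw k) == 24) 4096 0 = 1 := by decide +kernel

def wcount (y : ℕ) : ℕ := ((Finset.range 4096).filter (fun k => popc 24 (cw k) = y)).card

theorem wcount_eq (y : ℕ) : wcount y = countLt (fun k => popc 24 (cw k) == y) 4096 0 := by
  rw [countLt_spec, zero_add, wcount]
  exact congrArg Finset.card (Finset.filter_congr (fun k _ => by simp))

theorem sum_Cfin (H : ℕ → ℤ) : ∑ c ∈ Cfin, H (support₂ c).card =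
    H 0 + 759 * H 8 + 2576 * H 12 + 759 * H 16 + H 24 := by
  rw [Cfin_eq, Finset.sum_image (fun a ha b hb h => wordOf_cw_injOn ha hb h)]
  have h1 : ∀ k, (support₂ (wordOf (cw k))).card = popc 24 (cw k) := by
    intro k; rw [support₂_wordOf, card_ofMask]
  rw [Finset.sum_congr rfl (fun k _ => by rw [h1 k])]
  have hmaps : ∀ k ∈ Finset.range 4096, popc 24 (cw k) ∈ ({0, 8, 12, 16, 24} : Finset ℕ) := by
    intro k hk
    have := card_ofMask_cw k (Finset.mem_range.1 hk)
    rw [card_ofMask] at this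
    simp only [Finset.mem_insert, Finset.mem_singleton]
    exact this
  rw [← Finset.sum_fiberwise_of_maps_to hmaps]
  have h2 : ∀ y, ∑ k ∈ (Finset.range 4096).filter (fun k => popc 24 (cw k) = y),
      H (popc 24 (cw k)) = (wcount y : ℤ) * H y := by
    intro y
    rw [Finset.sum_congr rfl (fun k hk => by rw [(Finset.mem_filter.1 hk).2]), Finset.sum_const,
      nsmul_eq_mul, wcount]
  rw [Finset.sum_congr rfl (fun y _ => h2 y)]
  rw [Finset.sum_insert (by decide), Finset.sum_insert (by decide), Finset.sum_insert (by decide),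
    Finset.sum_insert (by decide), Finset.sum_singleton, wcount_eq, wcount_eq, wcount_eq,
    wcount_eq, wcount_eq, count0, count8, count12, count16, count24]
  push_cast
  ring

/-- the contribution of the code words of weight `w` and the parity `e` -/
noncomputable def HH (B e : ℤ) (w : ℕ) : ℤ :=
  Gp B (e + 2) ^ w * Gp B e ^ (24 - w) + se e * (Gm B (e + 2) ^ w * Gm B e ^ (24 - w))

noncomputable def Wform (B : ℤ) : ℤ :=
  (HH B 0 0 + 759 * HH B 0 8 + 2576 * HH B 0 12 + 759 * HH B 0 16 + HH B 0 24) +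
  (HH B 1 0 + 759 * HH B 1 8 + 2576 * HH B 1 12 + 759 * HH B 1 16 + HH B 1 24)

set_option linter.constructorNameAsVariable false in
open Classical in
theorem two_mul_sum (B : ℤ) : 2 * ∑ x ∈ Lbox, ∏ j, ph B (x j) = Wform B := by
  have hmaps : ∀ x ∈ Lbox, gmap x ∈ ({0, 1} : Finset ℤ) ×ˢ Cfin := by
    intro x hx
    rw [mem_Lbox] at hx
    obtain ⟨e, c, he, hc, h1, _⟩ := (mem_leech_iff4 x).1 hx.2
    rw [gmap_eq he h1, Finset.mem_product]
    refine ⟨?_, (mem_Cfin c).2 hc⟩
    simp only [Finset.mem_insert, Finset.mem_singleton]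
    exact he
  rw [← Finset.sum_fiberwise_of_maps_to hmaps, Finset.sum_product, Finset.mul_sum]
  have key : ∀ e : ℤ, (e = 0 ∨ e = 1) →
      2 * ∑ c ∈ Cfin, ∑ x ∈ Lbox.filter (fun x => gmap x = (e, c)), ∏ j, ph B (x j) =
      HH B e 0 + 759 * HH B e 8 + 2576 * HH B e 12 + 759 * HH B e 16 + HH B e 24 := by
    intro e he
    rw [Finset.mul_sum, ← sum_Cfin (HH B e)]
    apply Finset.sum_congr rfl
    intro c hc
    rw [fiber_eq he ((mem_Cfin c).1 hc), two_mul_fiber B he c, prod_by_weight (Gp B),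
      prod_by_weight (Gm B), HH]
  rw [Finset.sum_insert (by norm_num), Finset.sum_singleton, key 0 (Or.inl rfl),
    key 1 (Or.inr rfl), Wform]

end Cfsg.Agent.Lib.Helper9
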