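import Cfsg.Agent.Lib.Helper9.LeechCount

set_option autoImplicit false

namespace Cfsg.Agent.Lib.Helper9

open Cfsg Cfsg.Agent.Lib.Helper10

theorem bx0 : bx 0 = {-8, -4, 0, 4, 8} := by
  ext v; rw [mem_bx]; simp only [Finset.mem_insert, Finset.mem_singleton]; omega
theorem bx1 : bx 1 = {-7, -3, 1, 5} := by
  ext v; rw [mem_bx]; simp only [Finset.mem_insert, Finset.mem_singleton]; omega
theorem bx2 : bx 2 = {-6, -2, 2, 6} := by
  ext v; rw [mem_bx]; simp only [Finset.mem_insert, Finset.mem_singleton]; omega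
theorem bx3 : bx 3 = {-5, -1, 3, 7} := by
  ext v; rw [mem_bx]; simp only [Finset.mem_insert, Finset.mem_singleton]; omega

theorem Gp0 (B : ℤ) : Gp B 0 = 1 + 2 * B ^ 16 + 2 * B ^ 64 := by
  rw [Gp, bx0, Finset.sum_insert (by decide), Finset.sum_insert (by decide),
    Finset.sum_insert (by decide), Finset.sum_insert (by decide), Finset.sum_singleton]
  simp only [ph]
  norm_num
  ring
theorem Gp1 (B : ℤ) : Gp B 1 = B + B ^ 9 + B ^ 25 + B ^ 49 := by
  rw [Gp, bx1, Finset.sum_insert (by decide), Finset.sum_insert (by decide),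
    Finset.sum_insert (by decide), Finset.sum_singleton]
  simp only [ph]
  norm_num
  ring
theorem Gp2 (B : ℤ) : Gp B 2 = 2 * B ^ 4 + 2 * B ^ 36 := by
  rw [Gp, bx2, Finset.sum_insert (by decide), Finset.sum_insert (by decide),
    Finset.sum_insert (by decide), Finset.sum_singleton]
  simp only [ph]
  norm_num
  ring
theorem Gp3 (B : ℤ) : Gp B 3 = B + B ^ 9 + B ^ 25 + B ^ 49 := by
  rw [Gp, bx3, Finset.sum_insert (by decide), Finset.sum_insert (by decide),
    Finset.sum_insert (by decide), Finset.sum_singleton]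
  simp only [ph]
  norm_num
  ring
theorem Gm0 (B : ℤ) : Gm B 0 = 1 - 2 * B ^ 16 + 2 * B ^ 64 := by
  rw [Gm, bx0, Finset.sum_insert (by decide), Finset.sum_insert (by decide),
    Finset.sum_insert (by decide), Finset.sum_insert (by decide), Finset.sum_singleton]
  simp only [ph, sg]
  norm_num
  ring
theorem Gm1 (B : ℤ) : Gm B 1 = B ^ 49 - B ^ 9 + B - B ^ 25 := by
  rw [Gm, bx1, Finset.sum_insert (by decide), Finset.sum_insert (by decide),
    Finset.sum_insert (by decide), Finset.sum_singleton]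
  simp only [ph, sg]
  norm_num
  ring
theorem Gm2 (B : ℤ) : Gm B 2 = 0 := by
  rw [Gm, bx2, Finset.sum_insert (by decide), Finset.sum_insert (by decide),
    Finset.sum_insert (by decide), Finset.sum_singleton]
  simp only [ph, sg]
  norm_num
theorem Gm3 (B : ℤ) : Gm B 3 = B ^ 25 - B + B ^ 9 - B ^ 49 := by
  rw [Gm, bx3, Finset.sum_insert (by decide), Finset.sum_insert (by decide),
    Finset.sum_insert (by decide), Finset.sum_singleton]
  simp only [ph, sg]
  norm_num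
  ring

/-- explicit form of the generating number -/
def hx (p2 p0 m2 m0 s : ℤ) (w : ℕ) : ℤ := p2 ^ w * p0 ^ (24 - w) + s * (m2 ^ w * m0 ^ (24 - w))

def wx (p2 p0 m2 m0 s : ℤ) : ℤ :=
  hx p2 p0 m2 m0 s 0 + 759 * hx p2 p0 m2 m0 s 8 + 2576 * hx p2 p0 m2 m0 s 12 +
    759 * hx p2 p0 m2 m0 s 16 + hx p2 p0 m2 m0 s 24

def Wex (B : ℤ) : ℤ :=
  wx (2 * B ^ 4 + 2 * B ^ 36) (1 + 2 * B ^ 16 + 2 * B ^ 64) 0 (1 - 2 * B ^ 16 + 2 * B ^ 64) 1 +
  wx (B + B ^ 9 + B ^ 25 + B ^ 49) (B + B ^ 9 + B ^ 25 + B ^ 49) (B ^ 25 - B + B ^ 9 - B ^ 49)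
    (B ^ 49 - B ^ 9 + B - B ^ 25) (-1)

theorem Wform_eq (B : ℤ) : Wform B = Wex B := by
  have e1 : (0 : ℤ) + 2 = 2 := rfl
  have e2 : (1 : ℤ) + 2 = 3 := rfl
  have s0 : se 0 = 1 := rfl
  have s1 : se 1 = -1 := rfl
  simp only [Wform, HH, e1, e2, Gp0, Gp1, Gp2, Gp3, Gm0, Gm1, Gm2, Gm3, s0, s1, Wex, wx, hx]

def sqN (x : GolayPt → ℤ) : ℕ := ∑ j, (x j).natAbs ^ 2

theorem sqNorm_eq (x : GolayPt → ℤ) : sqNorm x = (sqN x : ℤ) := by
  unfold sqNorm sqN
  push_cast
  apply Finset.sum_congr rfl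
  intro j _
  rw [sq_abs]

theorem mem_box_of_sqNorm {x : GolayPt → ℤ} (h : sqNorm x ≤ 64) : x ∈ box := by
  rw [mem_box]
  intro j
  have h1 : x j ^ 2 ≤ sqNorm x :=
    Finset.single_le_sum (f := fun i => x i ^ 2) (fun i _ => sq_nonneg _) (Finset.mem_univ j)
  constructor <;> nlinarith

open Classical in
theorem card_Lbox_lt : Lbox.card < 2 ^ 100 := by
  calc Lbox.card ≤ box.card := by rw [Lbox_eq]; exact Finset.card_filter_le _ _
    _ = 17 ^ 24 := by
      rw [box_eq, Fintype.card_piFinset, Finset.prod_const, Finset.card_univ, card_golayPt]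
      simp
    _ < 2 ^ 100 := by norm_num

theorem sum_Lbox : ∑ x ∈ Lbox, (2 ^ 100) ^ sqN x = (Wex (2 ^ 100) / 2).toNat := by
  have h := two_mul_sum (2 ^ 100)
  rw [Wform_eq] at h
  have h1 : ∑ x ∈ Lbox, ∏ j, ph (2 ^ 100) (x j) = ((∑ x ∈ Lbox, (2 ^ 100) ^ sqN x : ℕ) : ℤ) := by
    push_cast
    apply Finset.sum_congr rfl
    intro x _
    unfold ph sqN
    rw [Finset.prod_pow_eq_pow_sum]
  rw [h1] at h
  rw [← h, Int.mul_ediv_cancel_left _ (by norm_num), Int.toNat_natCast]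

open Classical in
theorem ncard_norm (N : ℕ) (hN : N ≤ 64) :
    {x : GolayPt → ℤ | x ∈ leechLattice ∧ sqNorm x = N}.ncard =
      ((Wex (2 ^ 100) / 2).toNat / (2 ^ 100) ^ N) % 2 ^ 100 := by
  have hset : {x : GolayPt → ℤ | x ∈ leechLattice ∧ sqNorm x = N} =
      ((Lbox.filter (fun x => sqN x = N) : Finset (GolayPt → ℤ)) : Set (GolayPt → ℤ)) := by
    ext x
    rw [Finset.coe_filter, Set.mem_ofPred_eq, Set.mem_ofPred_eq, mem_Lbox]
    constructor
    · rintro ⟨h1, h2⟩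
      have h3 : sqNorm x ≤ 64 := by rw [h2]; exact_mod_cast hN
      have h4 : sqN x = N := by
        rw [sqNorm_eq] at h2
        exact_mod_cast h2
      exact ⟨⟨mem_box_of_sqNorm h3, h1⟩, h4⟩
    · rintro ⟨⟨_, h1⟩, h2⟩
      exact ⟨h1, by rw [sqNorm_eq, h2]⟩
  rw [hset, Set.ncard_coe_finset, ← digit_count Lbox sqN (2 ^ 100) card_Lbox_lt N, sum_Lbox]

theorem ncard_norm48 :
    {x : GolayPt → ℤ | x ∈ leechLattice ∧ sqNorm x = 48}.ncard = 16773120 := by
  have := ncard_norm 48 (by norm_num)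
  rw [show ((48 : ℕ) : ℤ) = 48 from rfl] at this
  rw [this]
  decide +kernel

theorem ncard_norm64 :
    {x : GolayPt → ℤ | x ∈ leechLattice ∧ sqNorm x = 64}.ncard = 398034000 := by
  have := ncard_norm 64 (by norm_num)
  rw [show ((64 : ℕ) : ℤ) = 64 from rfl] at this
  rw [this]
  decide +kernel

end Cfsg.Agent.Lib.Helper9
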