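import Cfsg.Agent.Lib.Helper9.LeechCount

set_option autoImplicit false

/-!
Weighted counts of the Leech lattice vectors all of whose coordinates lie in a finite set `R`.
-/

namespace Cfsg.Agent.Lib.Helper9

open Cfsg Cfsg.Agent.Lib.Helper10

section

variable (R : Finset ℤ) (φ : ℤ → ℤ)

def bxR (r : ℤ) : Finset ℤ := R.filter (fun v => v % 4 = r)
def GpR (r : ℤ) : ℤ := ∑ v ∈ bxR R r, φ v
def GmR (r : ℤ) : ℤ := ∑ v ∈ bxR R r, sg v * φ v

def boxR : Finset (GolayPt → ℤ) := Fintype.piFinset (fun _ => R)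
theorem boxR_eq : boxR R = Fintype.piFinset (fun _ => R) := rfl
attribute [irreducible] boxR

open Classical in
noncomputable def LboxR : Finset (GolayPt → ℤ) := (boxR R).filter (fun x => x ∈ leechLattice)
open Classical in
theorem LboxR_eq : LboxR R = (boxR R).filter (fun x => x ∈ leechLattice) := rfl
attribute [irreducible] LboxR

def TTR (e : ℤ) (c : GolayPt → ZMod 2) : Finset (GolayPt → ℤ) :=
  Fintype.piFinset (fun j => bxR R (e + 2 * cz c j))
theorem TTR_eq (e : ℤ) (c : GolayPt → ZMod 2) :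
    TTR R e c = Fintype.piFinset (fun j => bxR R (e + 2 * cz c j)) := rfl
attribute [irreducible] TTR

theorem mem_bxR (r v : ℤ) : v ∈ bxR R r ↔ v ∈ R ∧ v % 4 = r := by
  simp [bxR]

theorem mem_boxR (x : GolayPt → ℤ) : x ∈ boxR R ↔ ∀ j, x j ∈ R := by
  rw [boxR_eq, Fintype.mem_piFinset]

open Classical in
theorem mem_LboxR (x : GolayPt → ℤ) : x ∈ LboxR R ↔ (∀ j, x j ∈ R) ∧ x ∈ leechLattice := by
  rw [LboxR_eq, Finset.mem_filter, mem_boxR]

theorem mem_TTR (e : ℤ) (c : GolayPt → ZMod 2) (x : GolayPt → ℤ) :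
    x ∈ TTR R e c ↔ ∀ j, x j ∈ R ∧ x j % 4 = e + 2 * cz c j := by
  rw [TTR_eq, Fintype.mem_piFinset]
  simp only [mem_bxR]

open Classical in
theorem fiber_eqR {e : ℤ} (he : e = 0 ∨ e = 1) {c : GolayPt → ZMod 2} (hc : c ∈ golayCode) :
    (LboxR R).filter (fun x => gmap x = (e, c)) =
      (TTR R e c).filter (fun x => (∑ j, x j / 4) % 2 = e) := by
  ext x
  rw [Finset.mem_filter, Finset.mem_filter, mem_LboxR, mem_TTR]
  constructor
  · rintro ⟨⟨hb, hL⟩, hg⟩
    obtain ⟨e', c', he', _, h1, h2⟩ := (mem_leech_iff4 x).1 hL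
    rw [gmap_eq he' h1] at hg
    obtain ⟨rfl, rfl⟩ := Prod.mk.inj hg
    exact ⟨fun j => ⟨hb j, h1 j⟩, h2⟩
  · rintro ⟨hT, h2⟩
    exact ⟨⟨fun j => (hT j).1, (mem_leech_iff4 x).2 ⟨e, c, he, hc, fun j => (hT j).2, h2⟩⟩,
      gmap_eq he (fun j => (hT j).2)⟩

theorem two_mul_fiberR {e : ℤ} (he : e = 0 ∨ e = 1) (c : GolayPt → ZMod 2) :
    2 * ∑ x ∈ (TTR R e c).filter (fun x => (∑ j, x j / 4) % 2 = e), ∏ j, φ (x j) =
      ∏ j, GpR R φ (e + 2 * cz c j) + se e * ∏ j, GmR R φ (e + 2 * cz c j) := by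
  unfold GpR GmR
  rw [TTR_eq, Finset.prod_univ_sum, Finset.prod_univ_sum, Finset.sum_filter, Finset.mul_sum,
    Finset.mul_sum, ← Finset.sum_add_distrib]
  apply Finset.sum_congr rfl
  intro x _
  rw [Finset.prod_mul_distrib, prod_sg, se]
  rcases he with rfl | rfl
  · by_cases h : (∑ j, x j / 4) % 2 = 0
    · rw [if_pos h, if_pos h, if_pos rfl]; ring
    · rw [if_neg h, if_neg h, if_pos rfl]; ring
  · by_cases h : (∑ j, x j / 4) % 2 = 0
    · rw [if_neg (by omega), if_pos h, if_neg (by norm_num)]; ring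
    · rw [if_pos (by omega), if_neg h, if_neg (by norm_num)]; ring

/-- the contribution of the code words of weight `w` and the parity `e` -/
def HHR (e : ℤ) (w : ℕ) : ℤ :=
  GpR R φ (e + 2) ^ w * GpR R φ e ^ (24 - w) +
    se e * (GmR R φ (e + 2) ^ w * GmR R φ e ^ (24 - w))

def WformR : ℤ :=
  (HHR R φ 0 0 + 759 * HHR R φ 0 8 + 2576 * HHR R φ 0 12 + 759 * HHR R φ 0 16 + HHR R φ 0 24) +
  (HHR R φ 1 0 + 759 * HHR R φ 1 8 + 2576 * HHR R φ 1 12 + 759 * HHR R φ 1 16 + HHR R φ 1 24)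

set_option linter.constructorNameAsVariable false in
open Classical in
theorem two_mul_sumR : 2 * ∑ x ∈ LboxR R, ∏ j, φ (x j) = WformR R φ := by
  have hmaps : ∀ x ∈ LboxR R, gmap x ∈ ({0, 1} : Finset ℤ) ×ˢ Cfin := by
    intro x hx
    rw [mem_LboxR] at hx
    obtain ⟨e, c, he, hc, h1, _⟩ := (mem_leech_iff4 x).1 hx.2
    rw [gmap_eq he h1, Finset.mem_product]
    refine ⟨?_, (mem_Cfin c).2 hc⟩
    simp only [Finset.mem_insert, Finset.mem_singleton]
    exact he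
  rw [← Finset.sum_fiberwise_of_maps_to hmaps, Finset.sum_product, Finset.mul_sum]
  have key : ∀ e : ℤ, (e = 0 ∨ e = 1) →
      2 * ∑ c ∈ Cfin, ∑ x ∈ (LboxR R).filter (fun x => gmap x = (e, c)), ∏ j, φ (x j) =
      HHR R φ e 0 + 759 * HHR R φ e 8 + 2576 * HHR R φ e 12 + 759 * HHR R φ e 16 +
        HHR R φ e 24 := by
    intro e he
    rw [Finset.mul_sum, ← sum_Cfin (HHR R φ e)]
    apply Finset.sum_congr rfl
    intro c hc
    rw [fiber_eqR R he ((mem_Cfin c).1 hc), two_mul_fiberR R φ he c, prod_by_weight (GpR R φ),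
      prod_by_weight (GmR R φ), HHR]
  rw [Finset.sum_insert (by norm_num), Finset.sum_singleton, key 0 (Or.inl rfl),
    key 1 (Or.inr rfl), WformR]

/-- the number of lattice vectors with all coordinates in `R` -/
theorem two_mul_card_LboxR : 2 * ((LboxR R).card : ℤ) = WformR R (fun _ => 1) := by
  rw [← two_mul_sumR]
  simp

end

end Cfsg.Agent.Lib.Helper9
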