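import Cfsg.Agent.Lib.Helper9.LeechCountR

set_option autoImplicit false

/-!
The index of the Leech lattice in `ℤ^24` is `2^36`.
-/

namespace Cfsg.Agent.Lib.Helper9

open Cfsg Cfsg.Agent.Lib.Helper10

/-- reduction mod 8 -/
def red8 : (GolayPt → ℤ) →+ (GolayPt → ZMod 8) := (Int.castAddHom (ZMod 8)).compLeft GolayPt

theorem red8_apply (x : GolayPt → ℤ) (j : GolayPt) : red8 x j = ((x j : ℤ) : ZMod 8) := rfl

theorem red8_surj : Function.Surjective red8 := by
  intro y
  refine ⟨fun j => ((y j).val : ℤ), ?_⟩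
  funext j
  rw [red8_apply]
  simp

theorem mem_ker_red8 (x : GolayPt → ℤ) : x ∈ red8.ker ↔ ∀ j, (8 : ℤ) ∣ x j := by
  rw [AddMonoidHom.mem_ker, funext_iff]
  refine forall_congr' fun j => ?_
  rw [red8_apply, Pi.zero_apply]
  exact ZMod.intCast_zmod_eq_zero_iff_dvd (x j) 8

theorem ker_red8_le : red8.ker ≤ leechLattice := by
  intro x hx
  rw [mem_ker_red8] at hx
  rw [mem_leech_iff4]
  refine ⟨0, 0, Or.inl rfl, zero_mem _, fun j => ?_, ?_⟩
  · have := hx j
    simp only [cz, Pi.zero_apply, if_true]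
    omega
  · apply Int.emod_eq_zero_of_dvd
    apply Finset.dvd_sum
    intro j _
    have := hx j
    omega

def R8 : Finset ℤ := {0, 1, 2, 3, 4, 5, 6, 7}

theorem mem_R8 (v : ℤ) : v ∈ R8 ↔ 0 ≤ v ∧ v < 8 := by
  simp only [R8, Finset.mem_insert, Finset.mem_singleton]
  omega

theorem card_LboxR8 : (LboxR R8).card = 2 ^ 36 := by
  have h := two_mul_card_LboxR R8
  have e : WformR R8 (fun _ => 1) = 2 * 2 ^ 36 := by
    have g0 : GpR R8 (fun _ => 1) 0 = 2 := by decide
    have g1 : GpR R8 (fun _ => 1) 1 = 2 := by decide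
    have g2 : GpR R8 (fun _ => 1) (0 + 2) = 2 := by decide
    have g3 : GpR R8 (fun _ => 1) (1 + 2) = 2 := by decide
    have m0 : GmR R8 (fun _ => 1) 0 = 0 := by decide
    have m1 : GmR R8 (fun _ => 1) 1 = 0 := by decide
    have m2 : GmR R8 (fun _ => 1) (0 + 2) = 0 := by decide
    have m3 : GmR R8 (fun _ => 1) (1 + 2) = 0 := by decide
    simp only [WformR, HHR, g0, g1, g2, g3, m0, m1, m2, m3]
    norm_num
  rw [e] at h
  have h2 : ((LboxR R8).card : ℤ) = 2 ^ 36 := by linarith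
  exact_mod_cast h2

theorem emod8_mem {x : GolayPt → ℤ} (hx : x ∈ leechLattice) :
    (fun j => x j % 8) ∈ leechLattice := by
  have h : (fun j => x j % 8) = x - (fun j => 8 * (x j / 8)) := by
    funext j
    simp only [Pi.sub_apply]
    omega
  rw [h]
  refine sub_mem hx (ker_red8_le ?_)
  rw [mem_ker_red8]
  intro j
  exact Dvd.intro _ rfl

theorem card_map_red8 : Nat.card (leechLattice.map red8) = 2 ^ 36 := by
  rw [← card_LboxR8, ← Set.ncard_coe_finset, ← SetLike.coe_sort_coe, Nat.card_coe_set_eq]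
  have h : ((leechLattice.map red8 : AddSubgroup _) : Set (GolayPt → ZMod 8)) =
      red8 '' ((LboxR R8 : Finset _) : Set (GolayPt → ℤ)) := by
    ext y
    constructor
    · rintro ⟨x, hx, rfl⟩
      refine ⟨fun j => x j % 8, ?_, ?_⟩
      · rw [Finset.mem_coe, mem_LboxR]
        refine ⟨fun j => ?_, emod8_mem hx⟩
        rw [mem_R8]
        omega
      · funext j
        rw [red8_apply, red8_apply]
        rw [ZMod.intCast_eq_intCast_iff]
        exact Int.mod_modEq _ _
    · rintro ⟨x, hx, rfl⟩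
      rw [Finset.mem_coe, mem_LboxR] at hx
      exact ⟨x, hx.2, rfl⟩
  rw [h, Set.ncard_image_of_injOn]
  intro x hx y hy hxy
  rw [Finset.mem_coe, mem_LboxR] at hx hy
  funext j
  have h1 := congrFun hxy j
  rw [red8_apply, red8_apply, ZMod.intCast_eq_intCast_iff] at h1
  have h2 := (mem_R8 _).1 (hx.1 j)
  have h3 := (mem_R8 _).1 (hy.1 j)
  unfold Int.ModEq at h1
  push_cast at h1
  omega

theorem leech_index_eq : leechLattice.index = 2 ^ 36 := by
  have h1 := AddSubgroup.relIndex_mul_index ker_red8_le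
  rw [AddSubgroup.relIndex_ker, card_map_red8, AddSubgroup.index_ker,
    AddMonoidHom.range_eq_top.2 red8_surj] at h1
  have h2 : Nat.card (⊤ : AddSubgroup (GolayPt → ZMod 8)) = 2 ^ 36 * 2 ^ 36 := by
    rw [AddSubgroup.card_top, Nat.card_eq_fintype_card, Fintype.card_pi]
    simp [ZMod.card, GolayPt]
  rw [h2] at h1
  exact Nat.eq_of_mul_eq_mul_left (by norm_num) h1

end Cfsg.Agent.Lib.Helper9
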