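import Mathlib
import Cfsg.Agent.Lib.Helper20.M11Defs
import Cfsg.Agent.Lib.Helper9.M11Cnt

set_option autoImplicit false

/-! M11DEG ladder (helper20, S4429): rung N1. -/

namespace Cfsg.Agent.Lib.Helper9.M11

open Finset Cfsg.Agent.Lib.Helper20.M11

theorem vals11 (n : ℕ) (hd : n ∣ 7920) (hle : n ≤ 88) (σ : ℤ) (hσ : σ = 1 ∨ σ = -1)
    (hc : (n : ℤ) ≡ σ [ZMOD ((11 : ℕ) : ℤ)]) :
    (n = 1 ∧ σ = 1) ∨ (n = 12 ∧ σ = 1) ∨ (n = 45 ∧ σ = 1) ∨ (n = 10 ∧ σ = -1) := by
  unfold Int.ModEq at hc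
  rcases hσ with rfl | rfl <;> interval_cases n <;> omega

theorem core11 (e u a b c y : ℕ) (ε : ℤ) (H1 : e ∣ 10) (H2 : u + a + b + c = e)
    (H3 : ε = 1 ∨ ε = -1) (H4 : ε * (y : ℤ) = (u : ℤ) + 12 * a + 45 * b - 10 * c)
    (H6 : y ∣ 7920) (H6' : y ≤ 88)
    (H7 : u + 144 * a + 2025 * b + 100 * c + (10 / e) * y ^ 2 ≤ 7920) (H8 : u ≤ 1)
    (H9 : y = 1 → u = 0 ∧ 10 / e = 1) (H10 : u = 1 ∨ y = 1) (H11 : 1 ≤ c → e = 5) :
    e = 5 ∧ u = 1 ∧ ((a = 2 ∧ b = 0 ∧ c = 2 ∧ y = 5) ∨ (a = 0 ∧ b = 1 ∧ c = 3 ∧ y = 16)) := by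
  have he : e = 1 ∨ e = 2 ∨ e = 5 ∨ e = 10 := by
    have : e ≤ 10 := Nat.le_of_dvd (by norm_num) H1
    interval_cases e <;> omega
  have hz : ((u : ℤ) + 12 * a + 45 * b - 10 * c) ∣ 7920 := by
    rw [← H4]
    have : (y : ℤ) ∣ 7920 := by exact_mod_cast H6
    rcases H3 with rfl | rfl
    · simpa using this
    · simpa using this
  rcases he with rfl | rfl | rfl | rfl
  · exfalso
    clear hz
    norm_num at H9
    rcases H3 with rfl | rfl <;> omega
  · exfalso
    norm_num at H9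
    have hc : c = 0 := by clear hz; omega
    have hu : u = 1 := by clear hz; omega
    subst hc hu
    have hb : b ≤ 1 := by clear hz; omega
    interval_cases b
    · obtain rfl : a = 1 := by clear hz; omega
      norm_num at hz
    · obtain rfl : a = 0 := by clear hz; omega
      norm_num at hz
  · norm_num at H9 H7
    have hu : u = 1 := by clear hz; omega
    subst hu
    have hb : b ≤ 3 := by clear hz; omega
    have hc : c ≤ 4 := by clear hz; omega
    have ha : a ≤ 4 := by clear hz; omega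
    interval_cases b <;> interval_cases c <;> interval_cases a <;>
      first
      | (clear hz; omega)
      | (exfalso; norm_num at hz; done)
      | (exfalso; clear hz; rcases H3 with rfl | rfl <;> omega)
      | (exfalso
         clear hz
         have hy : y = 60 := by rcases H3 with rfl | rfl <;> omega
         subst hy
         norm_num at H7; done)
      | (clear hz; rcases H3 with rfl | rfl <;> omega)
  · exfalso
    clear hz
    norm_num at H9
    have hc : c = 0 := by omega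
    rcases H3 with rfl | rfl <;> omega

theorem num11 {ι : Type*} [Fintype ι] [DecidableEq ι] {d : ι → ℕ} {i₀ : ι} (hb : Base d i₀)
    {e : ℕ} {X Y : Finset ι} {s : ι → ℤ} {ε : ℤ} (hs : Shadow d 11 e X Y s ε) (he : e ∣ 10)
    (h0 : i₀ ∈ X ∪ Y) (key : (∃ i ∈ X, d i = 10) → e = 5) :
    (∃ i ∈ X, d i = 10) ∧
      ((X ∪ Y).val.map d = {1, 12, 12, 10, 10, 5, 5} ∨
        (X ∪ Y).val.map d = {1, 45, 10, 10, 10, 16, 16}) := by
  have he0 : 0 < e := Nat.pos_of_dvd_of_pos he (by norm_num)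
  have he10 : e ≤ 10 := Nat.le_of_dvd (by norm_num) he
  have hYcard : Y.card = 10 / e := hs.cardY
  have hYpos : 0 < Y.card := by
    rw [hYcard]; exact Nat.div_pos he10 he0
  obtain ⟨θ, hθ⟩ := Finset.card_pos.mp hYpos
  set y := d θ with hy
  have hYy : ∀ i ∈ Y, d i = y := fun i hi => hs.eqY i hi θ hθ
  have hX : ∀ i ∈ X, (d i = 1 ∧ s i = 1) ∨ (d i = 12 ∧ s i = 1) ∨ (d i = 45 ∧ s i = 1) ∨
      (d i = 10 ∧ s i = -1) := fun i hi =>
    vals11 (d i) (hb.dvd i) (Base.le hb i) (s i) (hs.sgn i hi) (hs.congX i hi)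
  have hXt : ∀ i ∈ X, d i ∈ ({1, 12, 45, 10} : Finset ℕ) := by
    intro i hi
    rcases hX i hi with h | h | h | h <;> simp [h.1]
  set u := cnt d X 1 with hu
  set a := cnt d X 12 with ha
  set b := cnt d X 45 with hbb
  set c := cnt d X 10 with hc
  have H2 : u + a + b + c = e := by
    rw [← hs.cardX, card_eq d X _ hXt]
    simp [Finset.sum_insert]
    ring
  have H4 : ε * (y : ℤ) = (u : ℤ) + 12 * a + 45 * b - 10 * c := by
    rw [hs.rel θ hθ]
    have h1 : ∑ j ∈ X, s j * (d j : ℤ) = ∑ j ∈ X, (fun n : ℕ => if n = 10 then (-10 : ℤ) else n) (d j) := by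
      apply Finset.sum_congr rfl
      intro j hj
      rcases hX j hj with h | h | h | h <;> simp [h.1, h.2]
    rw [h1, sum_eq d X _ hXt (fun n : ℕ => if n = 10 then (-10 : ℤ) else n)]
    simp [Finset.sum_insert]
    ring
  have H7 : u + 144 * a + 2025 * b + 100 * c + (10 / e) * y ^ 2 ≤ 7920 := by
    have h1 := Base.sum_sq_le hb (X ∪ Y)
    rw [Finset.sum_union hs.disj] at h1
    have h2 : ∑ i ∈ Y, d i ^ 2 = (10 / e) * y ^ 2 := by
      rw [Finset.sum_congr rfl (fun i hi => by rw [hYy i hi]), Finset.sum_const, hYcard,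
        smul_eq_mul]
    have h3 : ((∑ i ∈ X, d i ^ 2 : ℕ) : ℤ) = (u : ℤ) + 144 * a + 2025 * b + 100 * c := by
      push_cast
      have : ∑ i ∈ X, ((d i : ℕ) : ℤ) ^ 2 = _ := sum_eq d X _ hXt (fun n : ℕ => (n : ℤ) ^ 2)
      rw [this]
      simp [Finset.sum_insert]
      ring
    rw [h2] at h1
    have h3' : ∑ i ∈ X, d i ^ 2 = u + 144 * a + 2025 * b + 100 * c := by exact_mod_cast h3
    rw [h3'] at h1
    exact h1
  have H9 : y = 1 → u = 0 ∧ 10 / e = 1 := by
    intro hy1
    have hθ0 : θ = i₀ := hb.uniq θ hy1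
    constructor
    · apply cnt_eq_zero
      intro i hi h1
      have : i = i₀ := hb.uniq i h1
      rw [this, ← hθ0] at hi
      exact (Finset.disjoint_left.mp hs.disj hi) hθ
    · rw [← hYcard]
      apply le_antisymm _ hYpos
      calc Y.card ≤ ({i₀} : Finset ι).card := by
            apply Finset.card_le_card
            intro i hi
            rw [Finset.mem_singleton]
            exact hb.uniq i ((hYy i hi).trans hy1)
        _ = 1 := Finset.card_singleton _
  have H8 : u ≤ 1 := Base.cnt_one_le hb X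
  have H10 : u = 1 ∨ y = 1 := by
    rcases Finset.mem_union.mp h0 with h | h
    · left
      exact le_antisymm H8 (cnt_pos d h hb.one)
    · right
      rw [← hYy i₀ h]; exact hb.one
  have H11 : 1 ≤ c → e = 5 := fun h => key (exists_of_cnt_pos d h)
  obtain ⟨he5, hu1, hcase⟩ := core11 e u a b c y ε he H2 hs.eps H4 (hb.dvd θ) (Base.le hb θ) H7 H8
    H9 H10 H11
  have hY2 : Y.card = 2 := by rw [hYcard, he5]
  have hmap : (X ∪ Y).val.map d = Multiset.replicate u 1 + (Multiset.replicate a 12 +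
      (Multiset.replicate b 45 + Multiset.replicate c 10)) + Multiset.replicate 2 y := by
    rw [map_union d hs.disj, map_eq_replicate d Y y hYy, hY2, map_eq_sum_replicate d X _ hXt]
    simp [Finset.sum_insert]
    rfl
  rcases hcase with ⟨h1, h2, h3, h4⟩ | ⟨h1, h2, h3, h4⟩
  · refine ⟨exists_of_cnt_pos d (by omega), Or.inl ?_⟩
    rw [hmap, hu1, h1, h2, h3, h4]
    decide
  · refine ⟨exists_of_cnt_pos d (by omega), Or.inr ?_⟩
    rw [hmap, hu1, h1, h2, h3, h4]
    decide

end Cfsg.Agent.Lib.Helper9.M11
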