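import Mathlib
import Cfsg.Agent.Lib.Helper20.M11Defs
import Cfsg.Agent.Lib.Helper9.M11Cnt

set_option autoImplicit false

/-! M11DEG ladder (helper20, S4429): rungs N2, N4, N5. -/

namespace Cfsg.Agent.Lib.Helper9.M11

open Finset Cfsg.Agent.Lib.Helper20.M11

theorem num5_I {ι : Type*} [Fintype ι] [DecidableEq ι] {d : ι → ℕ} {i₀ : ι} (hb : Base d i₀)
    {S : Finset ι} (hS : S.val.map d = {1, 12, 12, 10, 10, 5, 5}) (hout : ∀ i, i ∉ S → 11 ∣ d i)
    {X Y : Finset ι} {s : ι → ℤ} {ε : ℤ} (hs : Shadow d 5 4 X Y s ε) (h0 : i₀ ∈ X ∪ Y) :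
    False := by
  have hYcard : Y.card = 1 := hs.cardY
  obtain ⟨θ, hθY⟩ := Finset.card_eq_one.mp hYcard
  have hθ : θ ∈ Y := by rw [hθY]; exact Finset.mem_singleton_self θ
  -- every member other than `i₀` has degree divisible by 11
  have key : ∀ i, ((d i : ℤ) % 5 = 1 ∨ (d i : ℤ) % 5 = 4) → i ≠ i₀ → (11 : ℤ) ∣ (d i : ℤ) := by
    intro i hmod hne
    by_cases hiS : i ∈ S
    · exfalso
      have := mem_of_map_eq d hS hiS
      simp only [Multiset.insert_eq_cons, Multiset.mem_cons, Multiset.mem_singleton] at this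
      rcases this with h | h | h | h | h | h | h
      · exact hne (hb.uniq i h)
      all_goals (rw [h] at hmod; omega)
    · exact_mod_cast hout i hiS
  have hXmod : ∀ i ∈ X, ((d i : ℤ) % 5 = 1 ∨ (d i : ℤ) % 5 = 4) := by
    intro i hi
    have h1 := hs.congX i hi
    unfold Int.ModEq at h1
    rcases hs.sgn i hi with h | h <;> rw [h] at h1 <;> omega
  have hθmod : ((d θ : ℤ) % 5 = 1 ∨ (d θ : ℤ) % 5 = 4) := by
    have h1 := hs.congY θ hθ
    unfold Int.ModEq at h1
    rcases hs.eps with h | h <;> rw [h] at h1 <;> omega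
  have hrel := hs.rel θ hθ
  rcases Finset.mem_union.mp h0 with h | h
  · have hθne : θ ≠ i₀ := by
      rintro rfl
      exact (Finset.disjoint_left.mp hs.disj h) hθ
    have h1 : (11 : ℤ) ∣ ε * (d θ : ℤ) := Dvd.dvd.mul_left (key θ hθmod hθne) _
    rw [hrel, ← Finset.add_sum_erase X _ h] at h1
    have h2 : (11 : ℤ) ∣ ∑ j ∈ X.erase i₀, s j * (d j : ℤ) := by
      apply Finset.dvd_sum
      intro j hj
      exact Dvd.dvd.mul_left (key j (hXmod j (Finset.mem_of_mem_erase hj))
        (Finset.ne_of_mem_erase hj)) _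
    have h3 : (11 : ℤ) ∣ s i₀ * (d i₀ : ℤ) := (Int.dvd_add_left h2).mp h1
    rw [hb.one] at h3
    rcases hs.sgn i₀ h with h4 | h4 <;> rw [h4] at h3 <;> omega
  · have hθ0 : i₀ = θ := by rw [hθY] at h; exact Finset.mem_singleton.mp h
    have h2 : (11 : ℤ) ∣ ∑ j ∈ X, s j * (d j : ℤ) := by
      apply Finset.dvd_sum
      intro j hj
      refine Dvd.dvd.mul_left (key j (hXmod j hj) ?_) _
      rintro rfl
      exact (Finset.disjoint_left.mp hs.disj hj) h
    rw [← hrel, ← hθ0, hb.one] at h2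
    rcases hs.eps with h4 | h4 <;> rw [h4] at h2 <;> omega

theorem count_of_multiset {ι : Type*} [Fintype ι] (d : ι → ℕ)
    (h : (Finset.univ : Finset ι).val.map d = {1, 10, 10, 10, 11, 16, 16, 44, 45, 55}) :
    Nat.card ι = 10 ∧ ∀ n : ℕ, Nat.card {i : ι // d i = n} =
      (if n = 1 ∨ n = 11 ∨ n = 44 ∨ n = 45 ∨ n = 55 then 1 else if n = 10 then 3
        else if n = 16 then 2 else 0) := by
  classical
  constructor
  · have := congrArg Multiset.card h
    rw [Multiset.card_map] at this
    rw [Nat.card_eq_fintype_card, ← Finset.card_univ, Finset.card_def, this]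
    rfl
  · intro n
    have h1 : Nat.card {i : ι // d i = n} = cnt d Finset.univ n := by
      rw [Nat.card_eq_fintype_card, Fintype.card_subtype, cnt]
    rw [h1, cnt_of_map_eq d h n]
    simp only [Multiset.insert_eq_cons, Multiset.count_cons, Multiset.count_singleton]
    split_ifs <;> omega

theorem num_final {ι : Type*} [Fintype ι] [DecidableEq ι] {d : ι → ℕ} {i₀ : ι} (hb : Base d i₀)
    {S T : Finset ι} (hS : S.val.map d = {1, 45, 10, 10, 10, 16, 16})
    (hout : ∀ i, i ∉ S → 11 ∣ d i) (hT : T.val.map d = {1, 16, 16, 11, 44})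
    (hout5 : ∀ i, i ∉ T → 5 ∣ d i) :
    (Finset.univ : Finset ι).val.map d = {1, 10, 10, 10, 11, 16, 16, 44, 45, 55} := by
  have hall : ∀ i ∈ (Finset.univ : Finset ι), d i ∈ ({1, 10, 11, 16, 44, 45, 55} : Finset ℕ) := by
    intro i _
    by_cases hiS : i ∈ S
    · have := mem_of_map_eq d hS hiS
      simp only [Multiset.insert_eq_cons, Multiset.mem_cons, Multiset.mem_singleton] at this
      rcases this with h | h | h | h | h | h | h <;> simp [h]
    · by_cases hiT : i ∈ T
      · have := mem_of_map_eq d hT hiT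
        simp only [Multiset.insert_eq_cons, Multiset.mem_cons, Multiset.mem_singleton] at this
        rcases this with h | h | h | h | h <;> simp [h]
      · have h1 := hout i hiS
        have h2 := hout5 i hiT
        have h3 := Base.le hb i
        have h4 := Base.pos hb i
        have : d i = 55 := by omega
        simp [this]
  have cS : ∀ n, ¬ 11 ∣ n → cnt d Finset.univ n = cnt d S n := by
    intro n hn
    apply cnt_eq_of_forall d (Finset.subset_univ S)
    intro i _ hi
    by_contra hiS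
    exact hn (hi ▸ hout i hiS)
  have cT : ∀ n, ¬ 5 ∣ n → cnt d Finset.univ n = cnt d T n := by
    intro n hn
    apply cnt_eq_of_forall d (Finset.subset_univ T)
    intro i _ hi
    by_contra hiT
    exact hn (hi ▸ hout5 i hiT)
  have c1 : cnt d Finset.univ 1 = 1 := by
    rw [cS 1 (by norm_num), cnt_of_map_eq d hS]; decide
  have c10 : cnt d Finset.univ 10 = 3 := by
    rw [cS 10 (by norm_num), cnt_of_map_eq d hS]; decide
  have c16 : cnt d Finset.univ 16 = 2 := by
    rw [cS 16 (by norm_num), cnt_of_map_eq d hS]; decide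
  have c45 : cnt d Finset.univ 45 = 1 := by
    rw [cS 45 (by norm_num), cnt_of_map_eq d hS]; decide
  have c11 : cnt d Finset.univ 11 = 1 := by
    rw [cT 11 (by norm_num), cnt_of_map_eq d hT]; decide
  have c44 : cnt d Finset.univ 44 = 1 := by
    rw [cT 44 (by norm_num), cnt_of_map_eq d hT]; decide
  have c55 : cnt d Finset.univ 55 = 1 := by
    have h1 : ((∑ i, d i ^ 2 : ℕ) : ℤ) = 7920 := by rw [hb.sq]; rfl
    push_cast at h1
    have h2 : ∑ i, ((d i : ℕ) : ℤ) ^ 2 = _ := sum_eq d Finset.univ _ hall (fun n : ℕ => (n : ℤ) ^ 2)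
    rw [h2] at h1
    simp [Finset.sum_insert, c1, c10, c16, c45, c11, c44] at h1
    omega
  rw [map_eq_sum_replicate d Finset.univ _ hall]
  simp [Finset.sum_insert, c1, c10, c16, c45, c11, c44, c55]
  decide

end Cfsg.Agent.Lib.Helper9.M11
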