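import Mathlib
import Cfsg.Agent.Lib.Helper20.M11Defs
import Cfsg.Agent.Lib.Helper9.M11Cnt

set_option autoImplicit false

/-! M11DEG ladder (helper20, S4429): rung N3. -/

namespace Cfsg.Agent.Lib.Helper9.M11

open Finset Cfsg.Agent.Lib.Helper20.M11

theorem vals5 (n : ℕ) (hd : n ∣ 7920) (hle : n ≤ 88)
    (hS : n = 1 ∨ n = 45 ∨ n = 10 ∨ n = 16 ∨ 11 ∣ n) (σ : ℤ) (hσ : σ = 1 ∨ σ = -1)
    (hc : (n : ℤ) ≡ σ [ZMOD ((5 : ℕ) : ℤ)]) :
    (n = 1 ∧ σ = 1) ∨ (n = 16 ∧ σ = 1) ∨ (n = 11 ∧ σ = 1) ∨ (n = 66 ∧ σ = 1) ∨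
      (n = 44 ∧ σ = -1) := by
  unfold Int.ModEq at hc
  rcases hσ with rfl | rfl <;> interval_cases n <;> omega

theorem valsY (n : ℕ) (hd : n ∣ 7920) (hle : n ≤ 88)
    (hS : n = 1 ∨ n = 45 ∨ n = 10 ∨ n = 16 ∨ 11 ∣ n) :
    n = 1 ∨ n = 45 ∨ n = 10 ∨ n = 16 ∨ n = 11 ∨ n = 22 ∨ n = 33 ∨ n = 44 ∨ n = 55 ∨ n = 66 ∨
      n = 88 := by
  interval_cases n <;> omega

set_option maxHeartbeats 1000000 in
theorem core5 (e u a b c f y : ℕ) (ε : ℤ) (H1 : e ∣ 4) (H2 : u + a + b + c + f = e)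
    (H3 : ε = 1 ∨ ε = -1)
    (H4 : ε * (y : ℤ) = (u : ℤ) + 16 * a + 11 * b + 66 * c - 44 * f)
    (H5 : (y : ℤ) ≡ ε * (e : ℤ) [ZMOD ((5 : ℕ) : ℤ)])
    (H6 : y ∣ 7920) (H6' : y ≤ 88) (HyS : y = 1 ∨ y = 45 ∨ y = 10 ∨ y = 16 ∨ 11 ∣ y)
    (H8 : u ≤ 1) (H9 : y = 1 → u = 0 ∧ 4 / e = 1) (H10 : u = 1 ∨ y = 1)
    (H12a : a ≤ 2) (H12b : y = 16 → a + 4 / e ≤ 2) :
    e = 4 ∧ 1 ≤ a ∧
      ((u = 0 ∧ a = 2 ∧ b = 1 ∧ c = 0 ∧ f = 1 ∧ y = 1) ∨
       (u = 1 ∧ a = 1 ∧ b = 1 ∧ c = 0 ∧ f = 1 ∧ y = 16) ∨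
       (u = 1 ∧ a = 2 ∧ b = 0 ∧ c = 0 ∧ f = 1 ∧ y = 11) ∨
       (u = 1 ∧ a = 2 ∧ b = 1 ∧ c = 0 ∧ f = 0 ∧ y = 44)) := by
  have he : e = 1 ∨ e = 2 ∨ e = 4 := by
    have : e ≤ 4 := Nat.le_of_dvd (by norm_num) H1
    interval_cases e <;> omega
  have hy := valsY y H6 H6' HyS
  clear H6 HyS H1
  unfold Int.ModEq at H5
  rcases he with rfl | rfl | rfl <;> rcases H3 with rfl | rfl <;>
    rcases hy with rfl | rfl | rfl | rfl | rfl | rfl | rfl | rfl | rfl | rfl | rfl <;>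
    first
    | (exfalso; omega)
    | (refine ⟨rfl, by omega, ?_⟩
       first
       | (left; omega)
       | (right; left; omega)
       | (right; right; left; omega)
       | (right; right; right; omega))

theorem num5_II {ι : Type*} [Fintype ι] [DecidableEq ι] {d : ι → ℕ} {i₀ : ι} (hb : Base d i₀)
    {S : Finset ι} (hS : S.val.map d = {1, 45, 10, 10, 10, 16, 16})
    (hout : ∀ i, i ∉ S → 11 ∣ d i)
    {e : ℕ} {X Y : Finset ι} {s : ι → ℤ} {ε : ℤ} (hs : Shadow d 5 e X Y s ε) (he : e ∣ 4)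
    (h0 : i₀ ∈ X ∪ Y) :
    e = 4 ∧ (∃ i ∈ X, d i = 16) ∧ (X ∪ Y).val.map d = {1, 16, 16, 11, 44} := by
  have he0 : 0 < e := Nat.pos_of_dvd_of_pos he (by norm_num)
  have he4 : e ≤ 4 := Nat.le_of_dvd (by norm_num) he
  have hYcard : Y.card = 4 / e := hs.cardY
  have hYpos : 0 < Y.card := by
    rw [hYcard]; exact Nat.div_pos he4 he0
  obtain ⟨θ, hθ⟩ := Finset.card_pos.mp hYpos
  set y := d θ with hy
  have hYy : ∀ i ∈ Y, d i = y := fun i hi => hs.eqY i hi θ hθ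
  have hSv : ∀ i, d i = 1 ∨ d i = 45 ∨ d i = 10 ∨ d i = 16 ∨ 11 ∣ d i := by
    intro i
    by_cases hiS : i ∈ S
    · have := mem_of_map_eq d hS hiS
      simp only [Multiset.insert_eq_cons, Multiset.mem_cons, Multiset.mem_singleton] at this
      omega
    · right; right; right; right; exact hout i hiS
  have hX : ∀ i ∈ X, (d i = 1 ∧ s i = 1) ∨ (d i = 16 ∧ s i = 1) ∨ (d i = 11 ∧ s i = 1) ∨
      (d i = 66 ∧ s i = 1) ∨ (d i = 44 ∧ s i = -1) := fun i hi =>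
    vals5 (d i) (hb.dvd i) (Base.le hb i) (hSv i) (s i) (hs.sgn i hi) (hs.congX i hi)
  have hXt : ∀ i ∈ X, d i ∈ ({1, 16, 11, 66, 44} : Finset ℕ) := by
    intro i hi
    rcases hX i hi with h | h | h | h | h <;> simp [h.1]
  set u := cnt d X 1 with hu
  set a := cnt d X 16 with ha
  set b := cnt d X 11 with hbb
  set c := cnt d X 66 with hc
  set f := cnt d X 44 with hf
  have H2 : u + a + b + c + f = e := by
    rw [← hs.cardX, card_eq d X _ hXt]
    simp [Finset.sum_insert]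
    ring
  have H4 : ε * (y : ℤ) = (u : ℤ) + 16 * a + 11 * b + 66 * c - 44 * f := by
    rw [hs.rel θ hθ]
    have h1 : ∑ j ∈ X, s j * (d j : ℤ)
        = ∑ j ∈ X, (fun n : ℕ => if n = 44 then (-44 : ℤ) else n) (d j) := by
      apply Finset.sum_congr rfl
      intro j hj
      rcases hX j hj with h | h | h | h | h <;> simp [h.1, h.2]
    rw [h1, sum_eq d X _ hXt (fun n : ℕ => if n = 44 then (-44 : ℤ) else n)]
    simp [Finset.sum_insert]
    ring
  have H9 : y = 1 → u = 0 ∧ 4 / e = 1 := by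
    intro hy1
    have hθ0 : θ = i₀ := hb.uniq θ hy1
    constructor
    · apply cnt_eq_zero
      intro i hi h1
      have : i = i₀ := hb.uniq i h1
      rw [this, ← hθ0] at hi
      exact (Finset.disjoint_left.mp hs.disj hi) hθ
    · rw [← hYcard]
      apply le_antisymm _ hYpos
      calc Y.card ≤ ({i₀} : Finset ι).card := by
            apply Finset.card_le_card
            intro i hi
            rw [Finset.mem_singleton]
            exact hb.uniq i ((hYy i hi).trans hy1)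
        _ = 1 := Finset.card_singleton _
  have H8 : u ≤ 1 := Base.cnt_one_le hb X
  have H10 : u = 1 ∨ y = 1 := by
    rcases Finset.mem_union.mp h0 with h | h
    · left
      exact le_antisymm H8 (cnt_pos d h hb.one)
    · right
      rw [← hYy i₀ h]; exact hb.one
  have h16 : cnt d (X ∪ Y) 16 ≤ 2 := by
    calc cnt d (X ∪ Y) 16 ≤ cnt d Finset.univ 16 := cnt_mono d (Finset.subset_univ _) 16
      _ = cnt d S 16 := by
          apply cnt_eq_of_forall d (Finset.subset_univ S)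
          intro i _ hi
          by_contra hiS
          have := hout i hiS
          omega
      _ = 2 := by rw [cnt_of_map_eq d hS]; decide
  rw [cnt_union d hs.disj] at h16
  have H12a : a ≤ 2 := by omega
  have H12b : y = 16 → a + 4 / e ≤ 2 := by
    intro hy16
    have : cnt d Y 16 = Y.card := by
      rw [cnt, Finset.filter_true_of_mem]
      intro i hi
      rw [hYy i hi, hy16]
    rw [this, hYcard] at h16
    exact h16
  obtain ⟨he', ha1, hcase⟩ := core5 e u a b c f y ε he H2 hs.eps H4 (hs.congY θ hθ) (hb.dvd θ)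
    (Base.le hb θ) (hSv θ) H8 H9 H10 H12a H12b
  have hY1 : Y.card = 1 := by rw [hYcard, he']
  have hmap : (X ∪ Y).val.map d = Multiset.replicate u 1 + (Multiset.replicate a 16 +
      (Multiset.replicate b 11 + (Multiset.replicate c 66 + Multiset.replicate f 44)))
      + Multiset.replicate 1 y := by
    rw [map_union d hs.disj, map_eq_replicate d Y y hYy, hY1, map_eq_sum_replicate d X _ hXt]
    simp [Finset.sum_insert]
    rfl
  refine ⟨he', exists_of_cnt_pos d ha1, ?_⟩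
  rcases hcase with ⟨h1, h2, h3, h4, h5, h6⟩ | ⟨h1, h2, h3, h4, h5, h6⟩ |
    ⟨h1, h2, h3, h4, h5, h6⟩ | ⟨h1, h2, h3, h4, h5, h6⟩ <;>
  · rw [hmap, h1, h2, h3, h4, h5, h6]
    decide

end Cfsg.Agent.Lib.Helper9.M11
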